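import Mathlib
import Cfsg.Agent.Tr.Hyperfocal
import Cfsg.Agent.H1.Transfer3

set_option autoImplicit false

namespace Cfsg.Agent.Tr

open Cfsg Cfsg.Agent.H12
open scoped commutatorElement Pointwise

variable {G : Type*} [Group G]

theorem complement_pResidual [Finite G] {p : ℕ} [hp : Fact p.Prime]
    (h : ∀ Q : Sylow p (pResidual p G), IsMulCommutative Q) :
    ∃ R : Subgroup G, R.IsComplement' (pResidual p G) := by
  set K := pResidual p G with hK
  obtain ⟨S⟩ : Nonempty (Sylow p K) := inferInstance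
  have hSab : IsMulCommutative (S : Subgroup K) := h S
  have h1' := Cfsg.H1.abelian_sylow_inf_pResidual S (h S)
  rw [pResidual_pResidual, inf_top_eq] at h1'
  have h1 : (S : Subgroup K) = ⁅(S : Subgroup K), Subgroup.normalizer ((S : Subgroup K) : Set K)⁆ := h1'
  set Q : Subgroup G := (S : Subgroup K).map K.subtype with hQ
  set N : Subgroup G := Subgroup.normalizer (Q : Set G) with hN
  set X : Subgroup G := N ⊓ K with hX
  have hQK : Q ≤ K := Subgroup.map_subtype_le _
  have hQS : Q.subgroupOf K = S := by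
    rw [hQ, Subgroup.subgroupOf, Subgroup.comap_map_eq_self_of_injective K.subtype_injective]
  have hXmap : (Subgroup.normalizer ((S : Subgroup K) : Set K)).map K.subtype = X := by
    rw [hX, ← Subgroup.subgroupOf_map_subtype, hN, Subgroup.subgroupOf_normalizer_eq hQK, hQS]
  have hQX : Q ≤ X := le_inf Subgroup.le_normalizer hQK
  have hXN : X ≤ Subgroup.normalizer (Q : Set G) := inf_le_left
  have h2 : ⁅Q, X⁆ = Q := by
    rw [← hXmap, hQ, ← Subgroup.map_commutator, ← h1]
  have hQab : IsMulCommutative Q := by rw [hQ]; infer_instance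
  have hQp : IsPGroup p Q := S.2.map _
  have hQsolv : Group.IsSolvable Q := by
    have := hQp.isNilpotent
    infer_instance
  have hidx : ¬ p ∣ Q.relIndex X := by
    intro hd
    apply S.not_dvd_index
    have e : Q.relIndex K = (S : Subgroup K).index := by rw [Subgroup.relIndex, hQS]
    rw [← e, ← Subgroup.relIndex_mul_relIndex Q X K hQX inf_le_right]
    exact Dvd.dvd.mul_right hd _
  have hcop : (Nat.card Q).Coprime (Q.relIndex X) := by
    obtain ⟨a, ha⟩ := IsPGroup.iff_card.mp hQp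
    rw [ha]
    exact Nat.Coprime.pow_left a ((Nat.Prime.coprime_iff_not_dvd hp.out).mpr hidx)
  obtain ⟨h3, -⟩ := Cfsg.H1.abelian_normal_hall_decomp Q X hQX hXN hcop
  rw [h2, inf_eq_left.mpr (inf_le_left : Q ⊓ Subgroup.centralizer (X : Set G) ≤ Q)] at h3
  obtain ⟨Y, hYX, hYc, hdis, hsup⟩ := Cfsg.H1.sz_exists_internal hQX hXN hcop
  have hYN : Y ≤ Subgroup.normalizer (Q : Set G) := hYX.trans hXN
  have hcop' : (Nat.card Y).Coprime (Nat.card Q) := by rw [hYc]; exact hcop.symm
  set M : Subgroup G := N ⊓ Subgroup.normalizer (Y : Set G) with hM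
  -- `N ≤ Q ⊔ M`
  have hNQM : N ≤ Q ⊔ M := by
    intro n hn
    have hB : MulAut.conj n • Y ≤ Q ⊔ Y := by
      rw [hsup]
      rintro _ ⟨y, hy, rfl⟩
      have hyX := hYX hy
      refine ⟨N.mul_mem (N.mul_mem hn hyX.1) (N.inv_mem hn), ?_⟩
      exact (pResidual_normal p G).conj_mem y hyX.2 n
    obtain ⟨k, hk, e⟩ := Cfsg.H1.sz_conj_internal hYN hcop' (Or.inr hQsolv) hB
      (Cfsg.H1.card_conj_smul n Y)
    have h4 : k⁻¹ * n ∈ Subgroup.normalizer (Y : Set G) := by
      rw [Subgroup.mem_normalizer_iff_map_conj_eq]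
      have e1 : Y.map (MulAut.conj k).toMonoidHom = Y.map (MulAut.conj n).toMonoidHom := e
      have e2 := map_conj_mul k⁻¹ n Y
      rw [← e1, map_conj_mul, inv_mul_cancel, map_conj_one] at e2
      exact e2.symm
    have h5 : k⁻¹ * n ∈ M := ⟨N.mul_mem (N.inv_mem (Subgroup.le_normalizer hk)) hn, h4⟩
    have : n = k * (k⁻¹ * n) := by group
    rw [this]
    exact Subgroup.mul_mem_sup hk h5
  -- `Q ⊓ M = ⊥`
  have hQM : ∀ q ∈ Q, q ∈ M → q = 1 := by
    intro q hq hqM
    have h4 : MulAut.conj q • Y = Y := Subgroup.mem_normalizer_iff_map_conj_eq.mp hqM.2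
    have h5 := Cfsg.H1.mem_centralizer_of_conj_eq hYN hdis hq h4
    have h6 : q ∈ Subgroup.centralizer (Q : Set G) := by
      rw [Subgroup.mem_centralizer_iff]
      intro z hz
      exact Cfsg.Agent.H4.comm_of_mem hz hq
    have h7 : q ∈ Q ⊓ Subgroup.centralizer (X : Set G) := by
      refine ⟨hq, ?_⟩
      rw [← hsup, Cfsg.H1.centralizer_sup_eq]
      exact ⟨h6, h5⟩
    rw [h3] at h7
    exact h7
  obtain ⟨R, -, hRM, hR, hRidx⟩ := exists_sylow_rel (p := p) (H := M) (Q := ⊥) bot_le IsPGroup.of_bot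
  refine ⟨R, ?_⟩
  apply Subgroup.isComplement'_of_disjoint_and_mul_eq_univ
  · rw [Subgroup.disjoint_def]
    intro x hxR hxK
    have hxM := hRM hxR
    have hxX : x ∈ Q ⊔ Y := by rw [hsup]; exact ⟨hxM.1, hxK⟩
    have hxX' : x ∈ (Q : Set G) * Y := by
      rw [← Subgroup.coe_mul_of_right_le_normalizer_left Q Y hYN]; exact hxX
    obtain ⟨q, hq, y, hy, e⟩ := hxX'
    have hyM : y ∈ M := ⟨hYN hy, Subgroup.le_normalizer hy⟩
    have hq1 : q = 1 := by
      apply hQM q hq
      have : q = x * y⁻¹ := by rw [← e]; group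
      rw [this]
      exact M.mul_mem hxM (M.inv_mem hyM)
    have hxy : x = y := by rw [← e]; simp [hq1]
    -- `x` is a `p`-element of `Y`
    obtain ⟨k, hk⟩ := hR ⟨x, hxR⟩
    have h4 : orderOf x ∣ p ^ k := orderOf_dvd_of_pow_eq_one (by simpa using congrArg Subtype.val hk)
    have h5 : orderOf x ∣ Nat.card Y := by
      have := orderOf_dvd_natCard (⟨x, hxy ▸ hy⟩ : Y)
      rwa [Subgroup.orderOf_mk] at this
    have h6 : (Nat.card Y).Coprime (p ^ k) := by
      rw [hYc]
      exact Nat.Coprime.pow_right k ((Nat.Prime.coprime_iff_not_dvd hp.out).mpr hidx).symm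
    exact orderOf_eq_one_iff.mp (Nat.eq_one_of_dvd_coprimes h6 h5 h4)
  · rw [← Subgroup.mul_normal, ← Subgroup.coe_top]
    congr 1
    rw [eq_top_iff, ← Sylow.normalizer_sup_eq_top S]
    refine sup_le ?_ le_sup_right
    have hMle : M ≤ R ⊔ K := by
      intro m hm
      obtain ⟨o, ho, r, hr, e⟩ := exists_mul_of_sylow_rel (p := p) (Y := M) (R := R) (K := K) hRM hR hRidx
        (fun y _ hc => mem_pResidual hc) hm
      rw [e, sup_comm]
      exact Subgroup.mul_mem_sup ho.1 hr
    calc N ≤ Q ⊔ M := hNQM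
      _ ≤ R ⊔ K := sup_le (hQK.trans le_sup_right) hMle

end Cfsg.Agent.Tr
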