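import Cfsg.Agent.Tr.EP1

set_option autoImplicit false

/-! Extraspecial-like groups of exponent `p`: induction and uniqueness. -/

namespace Cfsg.Agent.Tr.EPp

universe u v

variable {p : ℕ} {H : Type u} [Group H] {z : H}

theorem EP.sub [hp : Fact p.Prime] (hE : EP p H z) {x y : H} (hxy : y * x = x * y * z) :
    EP p (cB x y) ⟨z, hE.z_mem x y⟩ where
  ord := by
    have := Subgroup.orderOf_coe (⟨z, hE.z_mem x y⟩ : cB x y)
    rw [← this]
    exact hE.ord
  cen := fun h => Subtype.ext (hE.cen h)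
  comm := by
    intro a b
    obtain ⟨k, hk⟩ := hE.comm a b
    exact ⟨k, Subtype.ext hk⟩
  center := by
    intro b hb
    have hbH : ∀ g : H, g * (b : H) = b * g := by
      intro g
      obtain ⟨⟨i, j, c⟩, rfl⟩ := Psi_surjective hE hxy g
      obtain ⟨hbx, hby⟩ := mem_cB.1 b.2
      have h1 : Commute (b : H) (x ^ i.val) := (show Commute (b : H) x from hbx).pow_right _
      have h2 : Commute (b : H) (y ^ j.val) := (show Commute (b : H) y from hby).pow_right _
      have h3 : Commute (b : H) (c : H) := (congrArg Subtype.val (hb c)).symm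
      exact (((h1.mul_right h2).mul_right h3).eq).symm
    obtain ⟨n, hn⟩ := Subgroup.mem_zpowers_iff.1 (hE.center b hbH)
    exact Subgroup.mem_zpowers_iff.2 ⟨n, Subtype.ext (by simpa using hn)⟩
  exp := fun h => Subtype.ext (by simpa using hE.exp (h : H))

theorem EP.card_eq [hp : Fact p.Prime] [Finite H] (hE : EP p H z) {x y : H} (hxy : y * x = x * y * z) :
    Nat.card H = p * (p * Nat.card (cB x y)) := by
  have := Nat.card_congr (Equiv.ofBijective _ ⟨Psi_injective hE hxy, Psi_surjective hE hxy⟩)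
  rw [← this, Nat.card_prod, Nat.card_prod, Nat.card_zmod]

theorem EP.exists_pair [hp : Fact p.Prime] (hE : EP p H z) (hne : ∃ h : H, h ∉ Subgroup.zpowers z) :
    ∃ x y : H, y * x = x * y * z := by
  obtain ⟨x, hx⟩ := hne
  have h1 : ¬ ∀ g : H, g * x = x * g := fun h => hx (hE.center x h)
  push Not at h1
  obtain ⟨g, hg⟩ := h1
  obtain ⟨k, hk⟩ := hE.comm g x
  have hk1 : z ^ k ≠ 1 := by
    intro h
    rw [h, mul_one] at hk
    exact hg hk
  have hk2 : ¬ p ∣ k := by
    intro h
    apply hk1
    rw [← hE.ord] at h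
    exact orderOf_dvd_iff_pow_eq_one.1 h
  have hcop : Nat.Coprime k p := ((Nat.Prime.coprime_iff_not_dvd hp.out).2 hk2).symm
  obtain ⟨m, -, hm⟩ := Nat.exists_mul_mod_eq_one_of_coprime hcop hp.out.one_lt
  have hzk : ∀ t : H, t * z ^ k = z ^ k * t := fun t => ((show Commute t z from hE.cen t).pow_right k).eq
  refine ⟨x, g ^ m, ?_⟩
  rw [swap_pow_left hzk hk m, ← pow_mul, pow_eq_pow_mod _ hE.zpow, hm, pow_one]

theorem EP.card_eq_iff [hp : Fact p.Prime] [Finite H] (hE : EP p H z) :
    (∀ h : H, h ∈ Subgroup.zpowers z) ↔ Nat.card H = p := by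
  constructor
  · intro h
    rw [← hE.ord]
    exact (orderOf_eq_card_of_forall_mem_zpowers h).symm
  · intro h g
    have : Subgroup.zpowers z = ⊤ := by
      apply Subgroup.eq_top_of_card_eq
      rw [Nat.card_zpowers, hE.ord, h]
    rw [this]
    trivial

theorem iso_aux [hp : Fact p.Prime] : ∀ (n : ℕ) (H : Type u) [Group H] [Finite H] (z : H)
    (H' : Type v) [Group H'] [Finite H'] (z' : H'), EP p H z → EP p H' z' → Nat.card H = n →
    Nat.card H' = n → ∃ e : H ≃* H', e z = z' := by
  intro n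
  induction n using Nat.strong_induction_on with
  | _ n ih =>
    intro H _ _ z H' _ _ z' hE hE' hn hn'
    have : NeZero p := ⟨hp.out.ne_zero⟩
    by_cases hc : Nat.card H = p
    · have h1 := hE.card_eq_iff.2 hc
      have h2 := hE'.card_eq_iff.2 (by rw [hn', ← hn, hc])
      exact ⟨mulEquivOfOrderOfEq h1 h2 (by rw [hE.ord, hE'.ord]), mulEquivOfOrderOfEq_apply_gen _ _ _⟩
    · have h1 : ∃ h : H, h ∉ Subgroup.zpowers z := by
        by_contra hcon
        push Not at hcon
        exact hc (hE.card_eq_iff.1 hcon)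
      have h2 : ∃ h : H', h ∉ Subgroup.zpowers z' := by
        by_contra hcon
        push Not at hcon
        exact hc (by rw [hn, ← hn']; exact hE'.card_eq_iff.1 hcon)
      obtain ⟨x, y, hxy⟩ := hE.exists_pair h1
      obtain ⟨x', y', hxy'⟩ := hE'.exists_pair h2
      have c1 := hE.card_eq hxy
      have c2 := hE'.card_eq hxy'
      have hpos : 0 < p := hp.out.pos
      have hBB : Nat.card (cB x y) = Nat.card (cB x' y') := by
        have : p * (p * Nat.card (cB x y)) = p * (p * Nat.card (cB x' y')) := by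
          rw [← c1, ← c2, hn, hn']
        exact Nat.eq_of_mul_eq_mul_left hpos (Nat.eq_of_mul_eq_mul_left hpos this)
      have hlt : Nat.card (cB x y) < n := by
        rw [← hn, c1]
        have h3 : 0 < Nat.card (cB x y) := Nat.card_pos
        have h4 : 2 ≤ p := hp.out.two_le
        have h5 : 2 * (2 * Nat.card (cB x y)) ≤ p * (p * Nat.card (cB x y)) :=
          Nat.mul_le_mul h4 (Nat.mul_le_mul h4 le_rfl)
        omega
      obtain ⟨β, hβ⟩ := ih _ hlt (cB x y) ⟨z, hE.z_mem x y⟩ (cB x' y') ⟨z', hE'.z_mem x' y'⟩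
        (hE.sub hxy) (hE'.sub hxy') rfl hBB.symm
      let e1 := Equiv.ofBijective _ ⟨Psi_injective hE hxy, Psi_surjective hE hxy⟩
      let e2 := Equiv.ofBijective _ ⟨Psi_injective hE' hxy', Psi_surjective hE' hxy'⟩
      let f : ZMod p × ZMod p × cB x y ≃ ZMod p × ZMod p × cB x' y' :=
        (Equiv.refl _).prodCongr ((Equiv.refl _).prodCongr β.toEquiv)
      have hf : ∀ t s, f (mlaw p ⟨z, hE.z_mem x y⟩ t s) = mlaw p ⟨z', hE'.z_mem x' y'⟩ (f t) (f s) := by
        intro t s
        change (_, _, β _) = _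
        unfold mlaw
        rw [map_mul, map_mul, map_pow, hβ]
        rfl
      have he1 : ∀ t, e1 t = Psi p x y t := fun t => rfl
      have he2 : ∀ t, e2 t = Psi p x' y' t := fun t => rfl
      refine ⟨{ toEquiv := (e1.symm.trans f).trans e2, map_mul' := ?_ }, ?_⟩
      · intro a b
        obtain ⟨t, rfl⟩ := e1.surjective a
        obtain ⟨s, rfl⟩ := e1.surjective b
        have h3 : e1 t * e1 s = e1 (mlaw p ⟨z, hE.z_mem x y⟩ t s) := by
          rw [he1, he1, he1, Psi_mul hE hxy]
        change e2 (f (e1.symm (e1 t * e1 s))) = e2 (f (e1.symm (e1 t))) * e2 (f (e1.symm (e1 s)))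
        rw [h3, e1.symm_apply_apply, e1.symm_apply_apply, e1.symm_apply_apply, hf, he2, he2, he2,
          Psi_mul hE' hxy']
      · have h3 : z = e1 (0, 0, ⟨z, hE.z_mem x y⟩) := by
          rw [he1]; unfold Psi; simp
        change e2 (f (e1.symm z)) = z'
        conv_lhs => rw [h3]
        rw [e1.symm_apply_apply]
        change e2 (0, 0, β _) = z'
        rw [hβ, he2]
        unfold Psi
        simp

end Cfsg.Agent.Tr.EPp
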