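import Cfsg.Agent.Tr.ES3
import Cfsg.Agent.H20.Extra4

/-!
# Extraspecial 2-groups, IV: from `IsExtraspecial 2` to the intrinsic form (lead)
-/

set_option autoImplicit false

namespace Cfsg.Agent.Tr.E2

universe u v

theorem exists_ES {E : Type u} [Group E] (hE : Cfsg.IsExtraspecial 2 E) : ∃ z : E, ES E z := by
  have h2 := hE.2
  have h2' := h2
  rw [Nat.card_eq_two_iff' (1 : Subgroup.center E)] at h2
  obtain ⟨z, hz1, hz⟩ := h2
  have hcases : ∀ w ∈ Subgroup.center E, w = 1 ∨ w = (z : E) := by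
    intro w hw
    by_cases h : (⟨w, hw⟩ : Subgroup.center E) = 1
    · left; exact congrArg Subtype.val h
    · right; exact congrArg Subtype.val (hz ⟨w, hw⟩ h)
  have hzc : ∀ g : E, (z : E) * g = g * z := fun g => ((Subgroup.mem_center_iff.1 z.2) g).symm
  refine ⟨z, ⟨fun h => hz1 (Subtype.ext h), ?_, hzc, ?_, ?_, ?_⟩⟩
  · have h3 : z ^ 2 = 1 := by rw [← h2']; exact pow_card_eq_one'
    rw [sq] at h3
    exact congrArg Subtype.val h3
  · intro g h
    rcases hcases _ (Cfsg.Agent.H20.IsExtraspecial.comm_mem_center hE g h) with h3 | h3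
    · left
      calc g * h = (g * h * g⁻¹ * h⁻¹) * (h * g) := by group
        _ = h * g := by rw [h3, one_mul]
    · right
      calc g * h = (g * h * g⁻¹ * h⁻¹) * (h * g) := by group
        _ = z * (h * g) := by rw [h3]
  · intro g
    have := hcases _ (Cfsg.Agent.H20.IsExtraspecial.pow_mem_center hE g)
    rwa [sq] at this
  · intro w hw
    exact hcases w (Subgroup.mem_center_iff.2 (fun g => (hw g).symm))

/-- order and count for extraspecial 2-groups. -/
theorem extraspecial_count {E : Type u} [Group E] [Finite E] (hE : Cfsg.IsExtraspecial 2 E) :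
    ∃ m, 1 ≤ m ∧ Nat.card E = 2 ^ (2 * m + 1) ∧
      (cnt E = 2 ^ (2 * m) + 2 ^ m ∨ cnt E + 2 ^ m = 2 ^ (2 * m)) := by
  obtain ⟨z, hz⟩ := exists_ES hE
  obtain ⟨m, hm, hm'⟩ := count_aux _ E z hz le_rfl
  refine ⟨m, ?_, hm, hm'⟩
  by_contra hcon
  have hm0 : m = 0 := by omega
  subst hm0
  have : Fact (Nat.Prime 2) := ⟨Nat.prime_two⟩
  apply Cfsg.Agent.H20.IsExtraspecial.not_abelian hE
  have hcyc : IsCyclic E := isCyclic_of_prime_card (p := 2) (by rw [hm]; norm_num)
  intro a b
  exact (IsCyclic.commGroup (α := E)).mul_comm a b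

theorem extraspecial_iso {E : Type u} [Group E] [Finite E] {E' : Type v} [Group E'] [Finite E']
    (hE : Cfsg.IsExtraspecial 2 E) (hE' : Cfsg.IsExtraspecial 2 E') (hcard : Nat.card E = Nat.card E')
    (hcnt : cnt E = cnt E') : Nonempty (E ≃* E') := by
  obtain ⟨z, hz⟩ := exists_ES hE
  obtain ⟨z', hz'⟩ := exists_ES hE'
  exact iso_aux _ E z E' z' hz hz' le_rfl hcard hcnt

end Cfsg.Agent.Tr.E2
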