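import Mathlib

set_option autoImplicit false

/-! The projective line over a field: coordinates and the action of `GL₂` (lead). -/

namespace Cfsg.Agent.Tr.ProjLine

open scoped LinearAlgebra.Projectivization MatrixGroups
open Projectivization Matrix

variable {F : Type*} [Field F]

theorem mk_eq_iff {u v : Fin 2 → F} (hu : u ≠ 0) (hv : v ≠ 0) :
    Projectivization.mk F u hu = Projectivization.mk F v hv ↔ u 0 * v 1 = u 1 * v 0 := by
  rw [mk_eq_mk_iff']
  constructor
  · rintro ⟨a, rfl⟩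
    simp only [Pi.smul_apply, smul_eq_mul]
    ring
  · intro h
    by_cases h0 : v 0 = 0
    · have h1 : v 1 ≠ 0 := by
        intro h1
        apply hv
        funext i
        fin_cases i
        · exact h0
        · exact h1
      have hu0 : u 0 = 0 := by
        rw [h0, mul_zero] at h
        exact (mul_eq_zero.1 h).resolve_right h1
      refine ⟨u 1 / v 1, ?_⟩
      funext i
      fin_cases i
      · simp [h0, hu0]
      · simp [h1]
    · refine ⟨u 0 / v 0, ?_⟩
      funext i
      fin_cases i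
      · simp [h0]
      · simp only [Pi.smul_apply, smul_eq_mul, Fin.mk_one, Fin.isValue]
        field_simp
        rw [h, mul_comm]

theorem smul_zero' (g : GL (Fin 2) F) (v : Fin 2 → F) : (g • v) 0 = g.1 0 0 * v 0 + g.1 0 1 * v 1 := by
  change (g.1 *ᵥ v) 0 = _
  simp [Matrix.mulVec, dotProduct, Fin.sum_univ_two]

theorem smul_one' (g : GL (Fin 2) F) (v : Fin 2 → F) : (g • v) 1 = g.1 1 0 * v 0 + g.1 1 1 * v 1 := by
  change (g.1 *ᵥ v) 1 = _
  simp [Matrix.mulVec, dotProduct, Fin.sum_univ_two]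

theorem e0_ne : (![1, 0] : Fin 2 → F) ≠ 0 := fun h => one_ne_zero (congrFun h 0)
theorem e1_ne : (![0, 1] : Fin 2 → F) ≠ 0 := fun h => one_ne_zero (congrFun h 1)
theorem e2_ne : (![1, 1] : Fin 2 → F) ≠ 0 := fun h => one_ne_zero (congrFun h 0)

/-- the three standard points. -/
def P0 : ℙ F (Fin 2 → F) := Projectivization.mk F ![1, 0] e0_ne
def P1 : ℙ F (Fin 2 → F) := Projectivization.mk F ![0, 1] e1_ne
def P2 : ℙ F (Fin 2 → F) := Projectivization.mk F ![1, 1] e2_ne

/-- every triple of distinct points is the image of the standard triple; the determinant of the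
matrix is recorded. -/
theorem exists_std (a b c : ℙ F (Fin 2 → F)) (hab : a ≠ b) (hac : a ≠ c) (hbc : b ≠ c) :
    ∃ g : GL (Fin 2) F, g • (P0 : ℙ F (Fin 2 → F)) = a ∧ g • (P1 : ℙ F (Fin 2 → F)) = b ∧
      g • (P2 : ℙ F (Fin 2 → F)) = c := by
  induction a using Projectivization.ind with | _ u hu =>
  induction b using Projectivization.ind with | _ v hv =>
  induction c using Projectivization.ind with | _ w hw =>
  rw [Ne, mk_eq_iff] at hab hac hbc
  have hD1 : u 0 * v 1 - u 1 * v 0 ≠ 0 := sub_ne_zero.2 hab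
  have hD2 : u 0 * w 1 - u 1 * w 0 ≠ 0 := sub_ne_zero.2 hac
  have hD3 : w 0 * v 1 - w 1 * v 0 ≠ 0 := by
    intro h
    apply hbc
    linear_combination -h
  let A : Matrix (Fin 2) (Fin 2) F :=
    !![(w 0 * v 1 - w 1 * v 0) * u 0, (u 0 * w 1 - u 1 * w 0) * v 0;
       (w 0 * v 1 - w 1 * v 0) * u 1, (u 0 * w 1 - u 1 * w 0) * v 1]
  have hdet : A.det ≠ 0 := by
    rw [det_fin_two]
    have : A 0 0 * A 1 1 - A 0 1 * A 1 0 =
        (w 0 * v 1 - w 1 * v 0) * (u 0 * w 1 - u 1 * w 0) * (u 0 * v 1 - u 1 * v 0) := by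
      simp only [A, of_apply, cons_val', cons_val_zero, cons_val_one, cons_val_fin_one]
      ring
    rw [this]
    exact mul_ne_zero (mul_ne_zero hD3 hD2) hD1
  refine ⟨GeneralLinearGroup.mkOfDetNeZero A hdet, ?_, ?_, ?_⟩
  · unfold P0
    rw [smul_mk, mk_eq_iff, smul_zero', smul_one']
    change (A 0 0 * _ + A 0 1 * _) * _ = (A 1 0 * _ + A 1 1 * _) * _
    simp only [A, of_apply, cons_val', cons_val_zero, cons_val_one, cons_val_fin_one]
    ring
  · unfold P1
    rw [smul_mk, mk_eq_iff, smul_zero', smul_one']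
    change (A 0 0 * _ + A 0 1 * _) * _ = (A 1 0 * _ + A 1 1 * _) * _
    simp only [A, of_apply, cons_val', cons_val_zero, cons_val_one, cons_val_fin_one]
    ring
  · unfold P2
    rw [smul_mk, mk_eq_iff, smul_zero', smul_one']
    change (A 0 0 * _ + A 0 1 * _) * _ = (A 1 0 * _ + A 1 1 * _) * _
    simp only [A, of_apply, cons_val', cons_val_zero, cons_val_one, cons_val_fin_one]
    ring

/-- a matrix fixing the three standard points is scalar. -/
theorem scalar_of_fix (g : GL (Fin 2) F) (h0 : g • (P0 : ℙ F (Fin 2 → F)) = P0)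
    (h1 : g • (P1 : ℙ F (Fin 2 → F)) = P1) (h2 : g • (P2 : ℙ F (Fin 2 → F)) = P2) :
    g.1 0 1 = 0 ∧ g.1 1 0 = 0 ∧ g.1 0 0 = g.1 1 1 := by
  unfold P0 at h0
  unfold P1 at h1
  unfold P2 at h2
  rw [smul_mk, mk_eq_iff, smul_zero', smul_one'] at h0 h1 h2
  simp only [cons_val_zero, cons_val_one, cons_val_fin_one, mul_one, mul_zero, add_zero, zero_add] at h0 h1 h2
  refine ⟨h1, h0.symm, ?_⟩
  rw [h1, ← h0] at h2
  simpa using h2

end Cfsg.Agent.Tr.ProjLine
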