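import Cfsg.Agent.Tr.ES4
import Cfsg.Agent.H17.ExtraCount
import Cfsg.Prelude.Def_CaseTheorems

/-!
# Extraspecial 2-groups, V: 2-rank (lead)
-/

set_option autoImplicit false

namespace Cfsg.Agent.Tr.E2

universe u v

def HasEA (H : Type u) [Group H] (k : ℕ) : Prop :=
  ∃ A : Subgroup H, IsMulCommutative A ∧ (∀ a ∈ A, a ^ 2 = 1) ∧ Nat.card A = 2 ^ k

section lift
variable {H : Type u} [Group H] {z : H}

theorem mem_zpowers_invol {x u : H} (hx : x * x = 1) (hu : u ∈ Subgroup.zpowers x) : u = 1 ∨ u = x := by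
  obtain ⟨k, rfl⟩ := Subgroup.mem_zpowers_iff.1 hu
  have h2 : x ^ (2 : ℤ) = 1 := by
    rw [show (2 : ℤ) = 1 + 1 from rfl, zpow_add, zpow_one]; exact hx
  rcases Int.even_or_odd' k with ⟨j, rfl | rfl⟩
  · left; rw [zpow_mul, h2, one_zpow]
  · right; rw [zpow_add, zpow_mul, h2, one_zpow, one_mul, zpow_one]

theorem HasEA.lift (hE : ES H z) {x y : H} (hxy : x * y = z * (y * x)) (hx : x * x = 1) {k : ℕ}
    (h : HasEA (cB x y) k) : HasEA H (k + 1) := by
  obtain ⟨A, hA, hA2, hAc⟩ := h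
  have hx1 : x ≠ 1 := by
    rintro rfl
    exact hE.not_comm hxy (by simp)
  have hcomm : ∀ (a : A) (u : Subgroup.zpowers x), Commute (((a : cB x y) : H)) (u : H) := by
    intro a u
    rcases mem_zpowers_invol hx u.2 with h | h
    · rw [h]; exact Commute.one_right _
    · rw [h]; exact (a : cB x y).2.1
  let ψ : A × Subgroup.zpowers x →* H :=
    MonoidHom.noncommCoprod ((cB x y).subtype.comp A.subtype) (Subgroup.zpowers x).subtype hcomm
  have hψ : ∀ t, ψ t = (((t.1 : cB x y) : H)) * (t.2 : H) := fun t => rfl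
  have hinj : Function.Injective ψ := by
    rw [injective_iff_map_eq_one]
    rintro ⟨a, u⟩ h
    rw [hψ] at h
    have h1 : (u : H) ∈ cB x y := by
      have : (u : H) = (((a : cB x y) : H))⁻¹ := eq_inv_of_mul_eq_one_right h
      rw [this]
      exact Subgroup.inv_mem _ (a : cB x y).2
    have h2 : (u : H) = 1 := by
      rcases mem_zpowers_invol hx u.2 with h3 | h3
      · exact h3
      · rw [h3] at h1
        exact absurd h1.2 (hE.not_comm hxy)
    have h3 : (((a : cB x y) : H)) = 1 := by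
      have h4 : (((a : cB x y) : H)) * (u : H) = 1 := h
      rwa [h2, mul_one] at h4
    have hu : u = 1 := Subtype.ext h2
    have ha : a = 1 := Subtype.ext (Subtype.ext h3)
    rw [ha, hu]; rfl
  have hcommT : ∀ s t : A × Subgroup.zpowers x, s * t = t * s := by
    rintro ⟨a, u⟩ ⟨b, v⟩
    have h1 : a * b = b * a := hA.is_comm.comm a b
    have h2 : u * v = v * u := by
      apply Subtype.ext
      show (u : H) * (v : H) = (v : H) * (u : H)
      rcases mem_zpowers_invol hx u.2 with h3 | h3 <;> rcases mem_zpowers_invol hx v.2 with h4 | h4 <;>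
        simp [h3, h4]
    show (a * b, u * v) = (b * a, v * u)
    rw [h1, h2]
  have hsqT : ∀ s : A × Subgroup.zpowers x, s ^ 2 = 1 := by
    rintro ⟨a, u⟩
    have h1 : a ^ 2 = 1 := Subtype.ext (hA2 a a.2)
    have h2 : u ^ 2 = 1 := by
      apply Subtype.ext
      show (u : H) ^ 2 = 1
      rcases mem_zpowers_invol hx u.2 with h3 | h3
      · rw [h3, one_pow]
      · rw [h3, sq, hx]
    show (a ^ 2, u ^ 2) = 1
    rw [h1, h2]; rfl
  refine ⟨ψ.range, ⟨⟨?_⟩⟩, ?_, ?_⟩
  · rintro ⟨_, s, rfl⟩ ⟨_, t, rfl⟩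
    apply Subtype.ext
    show ψ s * ψ t = ψ t * ψ s
    rw [← map_mul, ← map_mul, hcommT]
  · rintro _ ⟨s, rfl⟩
    rw [← map_pow, hsqT, map_one]
  · rw [← Nat.card_congr (MonoidHom.ofInjective hinj).toEquiv, Nat.card_prod, hAc, Nat.card_zpowers,
      orderOf_eq_prime (by rw [sq]; exact hx) hx1, pow_succ]

end lift

theorem ea_aux (n : ℕ) : ∀ (H : Type u) [Group H] [Finite H] (z : H), ES H z → Nat.card H ≤ n →
    ∀ m, Nat.card H = 2 ^ (2 * m + 1) →
      (cnt H = 2 ^ (2 * m) + 2 ^ m → HasEA H (m + 1)) ∧ (cnt H + 2 ^ m = 2 ^ (2 * m) → HasEA H m) := by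
  induction n with
  | zero =>
    intro H _ _ z _ h
    have : 0 < Nat.card H := Nat.card_pos
    omega
  | succ n ih =>
    intro H _ _ z hE hn m hm
    by_cases hinv : ∃ x : H, x * x = 1 ∧ x ≠ 1 ∧ x ≠ z
    · obtain ⟨x, hx, hx1, hxz⟩ := hinv
      obtain ⟨y, hy, hxy⟩ := exists_pair hE hx hx1 hxz
      have hc := card_eq hE hxy
      have hk := cnt_eq hE hxy hx hy
      have hpos : 0 < Nat.card (cB x y) := Nat.card_pos
      have hm1 : 1 ≤ m := by
        by_contra hcon
        have hm0 : m = 0 := by omega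
        subst hm0
        norm_num at hm
        omega
      obtain ⟨μ, rfl⟩ : ∃ μ, m = μ + 1 := ⟨m - 1, by omega⟩
      have e1 : 2 ^ (2 * (μ + 1)) = 4 * 2 ^ (2 * μ) := by ring
      have e2 : 2 ^ (2 * μ + 1) = 2 * 2 ^ (2 * μ) := by ring
      have e3 : 2 ^ (μ + 1) = 2 * 2 ^ μ := by ring
      have e4 : 2 ^ (2 * (μ + 1) + 1) = 8 * 2 ^ (2 * μ) := by ring
      have hcB : Nat.card (cB x y) = 2 ^ (2 * μ + 1) := by
        rw [e2]; rw [e4] at hm; omega
      obtain ⟨ih1, ih2⟩ := ih (cB x y) _ (hE.cB hxy) (by omega) μ hcB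
      rw [e2] at hcB
      constructor
      · intro h
        rw [e1, e3] at h
        exact (ih1 (by omega)).lift hE hxy hx
      · intro h
        rw [e1, e3] at h
        exact (ih2 (by omega)).lift hE hxy hx
    · push Not at hinv
      have hno : ∀ x : H, x * x = 1 → x = 1 ∨ x = z := by
        intro x hx
        by_contra hcon
        push Not at hcon
        exact hcon.2 (hinv x hx hcon.1)
      have hc2 := cnt_eq_two hE hno
      have hZ : HasEA H 1 := by
        refine ⟨Subgroup.zpowers z, inferInstance, ?_, ?_⟩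
        · intro a ha
          rcases mem_zpowers_invol hE.sq ha with h | h
          · rw [h, one_pow]
          · rw [h, sq, hE.sq]
        · rw [Nat.card_zpowers, orderOf_eq_prime (by rw [sq]; exact hE.sq) hE.ne, pow_one]
      by_cases hall : ∀ x : H, x = 1 ∨ x = z
      · have h2 := card_eq_two hE hall
        have hm0 : m = 0 := by
          have : 2 ^ (2 * m + 1) = 2 ^ 1 := by rw [← hm, h2]; norm_num
          have := Nat.pow_right_injective (le_refl 2) this
          omega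
        subst hm0
        refine ⟨fun _ => hZ, fun h => ?_⟩
        rw [hc2] at h
        norm_num at h
      · push Not at hall
        obtain ⟨x, hx1, hxz⟩ := hall
        have h8 := (q8 hE hno hx1 hxz).1
        have hm0 : m = 1 := by
          have : 2 ^ (2 * m + 1) = 2 ^ 3 := by rw [← hm, h8]; norm_num
          have := Nat.pow_right_injective (le_refl 2) this
          omega
        subst hm0
        refine ⟨fun h => ?_, fun _ => hZ⟩
        rw [hc2] at h
        norm_num at h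

section rank
variable {E : Type u} [Group E] [Finite E]

theorem rank_upper (hE : Cfsg.IsExtraspecial 2 E) {n : ℕ} (hn : Nat.card E = 2 ^ (2 * n + 1)) :
    Cfsg.PRankLE 2 (n + 1) E := by
  have : Fact (Nat.Prime 2) := ⟨Nat.prime_two⟩
  intro A hA _
  have h1 := Cfsg.Agent.H17.card_mul_card_centralizer_le hE.1.1 (Subgroup.center E) hE.2 le_rfl
    (Cfsg.Agent.H20.IsExtraspecial.comm_mem_center hE) A
  have h2 : Nat.card ↥(A ⊓ Subgroup.center E) ≤ 2 := hE.2 ▸ Subgroup.card_le_of_le inf_le_right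
  have hAc : A ≤ Subgroup.centralizer (A : Set E) := by
    intro a ha
    rw [Subgroup.mem_centralizer_iff]
    intro b hb
    exact congrArg Subtype.val (hA.is_comm.comm ⟨b, hb⟩ ⟨a, ha⟩)
  have h3 : Nat.card A * Nat.card A ≤ 2 ^ (n + 1) * 2 ^ (n + 1) := by
    calc Nat.card A * Nat.card A ≤ Nat.card A * Nat.card (Subgroup.centralizer (A : Set E)) :=
          Nat.mul_le_mul_left _ (Subgroup.card_le_of_le hAc)
      _ ≤ Nat.card ↥(A ⊓ Subgroup.center E) * Nat.card E := h1
      _ ≤ 2 * 2 ^ (2 * n + 1) := by rw [hn]; exact Nat.mul_le_mul_right _ h2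
      _ = 2 ^ (n + 1) * 2 ^ (n + 1) := by ring
  exact Nat.mul_self_le_mul_self_iff.1 h3

theorem rank_plus (hE : Cfsg.IsExtraspecial 2 E) {n : ℕ} (hn : Nat.card E = 2 ^ (2 * n + 1))
    (hc : cnt E = 2 ^ (2 * n) + 2 ^ n) : Cfsg.PRankLE 2 (n + 1) E ∧ ¬ Cfsg.PRankLE 2 n E := by
  refine ⟨rank_upper hE hn, fun h => ?_⟩
  obtain ⟨z, hz⟩ := exists_ES hE
  obtain ⟨A, hA, hA2, hAc⟩ := (ea_aux _ E z hz le_rfl n hn).1 hc
  have := h A hA hA2
  rw [hAc] at this
  have : 2 ^ n < 2 ^ (n + 1) := Nat.pow_lt_pow_right (by norm_num) (by omega)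
  omega

theorem rank_minus (hE : Cfsg.IsExtraspecial 2 E) {n : ℕ} (hn1 : 1 ≤ n)
    (hn : Nat.card E = 2 ^ (2 * n + 1))
    (hc : cnt E + 2 ^ n = 2 ^ (2 * n)) : Cfsg.PRankLE 2 n E ∧ ¬ Cfsg.PRankLE 2 (n - 1) E := by
  constructor
  · intro A hA hA2
    by_contra hcon
    push Not at hcon
    have hle := rank_upper hE hn A hA hA2
    have hdvd : Nat.card A ∣ 2 ^ (2 * n + 1) := hn ▸ Subgroup.card_subgroup_dvd_card A
    obtain ⟨k, _, hk⟩ := (Nat.dvd_prime_pow Nat.prime_two).1 hdvd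
    rw [hk] at hcon hle
    have h1 : n < k := (Nat.pow_lt_pow_iff_right (by norm_num)).1 hcon
    have h2 : k ≤ n + 1 := (Nat.pow_le_pow_iff_right (by norm_num)).1 hle
    have hk' : k = n + 1 := by omega
    rw [hk'] at hk
    have h3 := Cfsg.Agent.H17.IsExtraspecial.card_sq_eq_one n hE hn A ⟨hA, hA2⟩ hk
    have h4 : cnt E = 2 ^ (2 * n) + 2 ^ n := h3
    have : 0 < 2 ^ n := by positivity
    omega
  · intro h
    obtain ⟨z, hz⟩ := exists_ES hE
    obtain ⟨A, hA, hA2, hAc⟩ := (ea_aux _ E z hz le_rfl n hn).2 hc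
    have := h A hA hA2
    rw [hAc] at this
    have : 2 ^ (n - 1) < 2 ^ n := Nat.pow_lt_pow_right (by norm_num) (by omega)
    omega

end rank

end Cfsg.Agent.Tr.E2
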