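import Mathlib
import Cfsg.Prelude.Def_Transfer
import Cfsg.Agent.H1.Small2

set_option autoImplicit false

/-! Heisenberg-type parametrised groups are extraspecial of exponent `p`. -/

namespace Cfsg.Tr.Heis

open Subgroup Matrix
open scoped commutatorElement

variable {E : Type*} [Group E] {p n : ℕ} [hpF : Fact p.Prime]

section abstract

variable (M : (Fin n → ZMod p) → (Fin n → ZMod p) → ZMod p → E)
  (hmul : ∀ a b c a' b' c', M a b c * M a' b' c' = M (a + a') (b + b') (c + c' + a ⬝ᵥ b'))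

include hmul

theorem M_one : M 0 0 0 = 1 := by
  have h := hmul 0 0 0 0 0 0
  simp only [add_zero, zero_dotProduct] at h
  exact mul_eq_left.1 h

theorem M_pow (a b : Fin n → ZMod p) (c : ZMod p) (k : ℕ) :
    (M a b c) ^ k = M ((k : ZMod p) • a) ((k : ZMod p) • b)
      ((k : ZMod p) * c + (k.choose 2 : ZMod p) * (a ⬝ᵥ b)) := by
  induction k with
  | zero => simp [M_one M hmul]
  | succ k ih =>
    rw [pow_succ, ih, hmul]
    congr 1
    · simp [add_smul]
    · simp [add_smul]
    · rw [Nat.choose_succ_succ' k 1, Nat.choose_one_right, smul_dotProduct]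
      push_cast
      simp only [smul_eq_mul]
      ring

theorem M_pow_p (hp : p ≠ 2) (a b : Fin n → ZMod p) (c : ZMod p) : (M a b c) ^ p = 1 := by
  rw [M_pow M hmul]
  have h1 : ((p : ℕ) : ZMod p) = 0 := CharP.cast_eq_zero _ _
  have h2 : ((p.choose 2 : ℕ) : ZMod p) = 0 := by
    rw [ZMod.natCast_eq_zero_iff]
    exact hpF.out.dvd_choose_self (by norm_num)
      (lt_of_le_of_ne hpF.out.two_le (Ne.symm hp))
  rw [h1, h2]
  simp [M_one M hmul]

theorem M_comm (a b : Fin n → ZMod p) (c : ZMod p) (a' b' : Fin n → ZMod p) (c' : ZMod p) :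
    ⁅M a b c, M a' b' c'⁆ = M 0 0 (a ⬝ᵥ b' - a' ⬝ᵥ b) := by
  have h : M a b c * M a' b' c' = M 0 0 (a ⬝ᵥ b' - a' ⬝ᵥ b) * (M a' b' c' * M a b c) := by
    rw [hmul, hmul, hmul]
    congr 1
    · simp [add_comm]
    · simp [add_comm]
    · simp only [zero_dotProduct]; ring
  rw [commutatorElement_def, h]
  group

end abstract

theorem main (hp : p ≠ 2) (hn : 1 ≤ n)
    (M : (Fin n → ZMod p) → (Fin n → ZMod p) → ZMod p → E)
    (hmul : ∀ a b c a' b' c', M a b c * M a' b' c' = M (a + a') (b + b') (c + c' + a ⬝ᵥ b'))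
    (hinj : ∀ a b c a' b' c', M a b c = M a' b' c' → a = a' ∧ b = b' ∧ c = c')
    (hsurj : ∀ x : E, ∃ a b c, x = M a b c) :
    Cfsg.IsExtraspecial p E ∧ Nat.card E = p ^ (1 + 2 * n) ∧ ∀ x : E, x ^ p = 1 := by
  have hexp : ∀ x : E, x ^ p = 1 := by
    intro x
    obtain ⟨a, b, c, rfl⟩ := hsurj x
    exact M_pow_p M hmul hp a b c
  have hcard : Nat.card E = p ^ (1 + 2 * n) := by
    have e : ((Fin n → ZMod p) × (Fin n → ZMod p) × ZMod p) ≃ E :=
      Equiv.ofBijective (fun t => M t.1 t.2.1 t.2.2) ⟨by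
        rintro ⟨a, b, c⟩ ⟨a', b', c'⟩ h
        obtain ⟨h1, h2, h3⟩ := hinj _ _ _ _ _ _ h
        simp only at h1 h2 h3
        subst h1 h2 h3
        rfl, by
        intro x
        obtain ⟨a, b, c, rfl⟩ := hsurj x
        exact ⟨(a, b, c), rfl⟩⟩
    rw [← Nat.card_congr e]
    simp only [Nat.card_eq_fintype_card, Fintype.card_prod, Fintype.card_fun, ZMod.card,
      Fintype.card_fin]
    ring
  have : Finite E := Nat.finite_of_card_ne_zero (by
    rw [hcard]; exact pow_ne_zero _ hpF.out.ne_zero)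
  have hP : IsPGroup p E := IsPGroup.of_card hcard
  have hcen : ∀ x : E, x ∈ center E ↔ ∃ c, x = M 0 0 c := by
    intro x
    constructor
    · intro hx
      rw [mem_center_iff] at hx
      obtain ⟨a, b, c, rfl⟩ := hsurj x
      have ha : a = 0 := by
        funext i
        have h := hx (M 0 (Pi.single i 1) 0)
        rw [hmul, hmul] at h
        have h3 := (hinj _ _ _ _ _ _ h).2.2
        simp at h3
        first | exact h3 | exact h3.symm
      have hb : b = 0 := by
        funext i
        have h := hx (M (Pi.single i 1) 0 0)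
        rw [hmul, hmul] at h
        have h3 := (hinj _ _ _ _ _ _ h).2.2
        simp at h3
        first | exact h3 | exact h3.symm
      exact ⟨c, by rw [ha, hb]⟩
    · rintro ⟨c, rfl⟩
      rw [mem_center_iff]
      intro g
      obtain ⟨a, b, c', rfl⟩ := hsurj g
      rw [hmul, hmul]
      congr 1
      · simp
      · simp
      · simp [add_comm]
  have hcc : Nat.card (center E) = p := by
    have e : ZMod p ≃ center E :=
      Equiv.ofBijective (fun c => ⟨M 0 0 c, (hcen _).2 ⟨c, rfl⟩⟩) ⟨by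
        intro c c' h
        exact (hinj _ _ _ _ _ _ (Subtype.ext_iff.1 h)).2.2, by
        rintro ⟨x, hx⟩
        obtain ⟨c, rfl⟩ := (hcen x).1 hx
        exact ⟨c, rfl⟩⟩
    rw [← Nat.card_congr e, Nat.card_zmod]
  have hcomm : commutator E = center E := by
    apply le_antisymm
    · rw [_root_.commutator_def, Subgroup.commutator_le]
      intro g₁ _ g₂ _
      obtain ⟨a, b, c, rfl⟩ := hsurj g₁
      obtain ⟨a', b', c', rfl⟩ := hsurj g₂
      rw [M_comm M hmul]
      exact (hcen _).2 ⟨_, rfl⟩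
    · intro x hx
      obtain ⟨c, rfl⟩ := (hcen x).1 hx
      have h := M_comm M hmul (Pi.single (⟨0, hn⟩ : Fin n) c) 0 0 0 (Pi.single (⟨0, hn⟩ : Fin n) 1) 0
      simp at h
      rw [← h, _root_.commutator_def]
      exact Subgroup.commutator_mem_commutator (mem_top _) (mem_top _)
  have hfr : frattini E = commutator E := by
    apply le_antisymm
    · exact Cfsg.H1.frattini_pgroup_le p (commutator E) le_rfl
        (fun x => by rw [hexp x]; exact one_mem _)
    · exact (Cfsg.H1.frattini_pgroup_ge p hP).1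
  exact ⟨⟨⟨hP, hfr.trans hcomm, hcomm⟩, hcc⟩, hcard, hexp⟩

end Cfsg.Tr.Heis
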