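import Mathlib
import Cfsg.Agent.H12.Dk19
import Cfsg.Agent.Lib.Helper22.SemiFrob
import Cfsg.Agent.Lib.Helper18.SL2b

set_option autoImplicit false

/-! `SL₂(p)` as a Frobenius complement from an explicit table of a fixed-point-free
representation in `SL₂(P)` (lead). -/

namespace Cfsg.Agent.Tr.FrobSL

open Cfsg.Agent.H12.Dk Matrix

variable {F : Type*} [Field F]

/-- an element of `SL₂` of trace `≠ 2` has no nonzero fixed vector. -/
theorem eq_zero_of_act_eq {m : SpecialLinearGroup (Fin 2) F} (ht : e00 m + e11 m ≠ 2) {v : F × F}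
    (hv : act m v = v) : v = 0 := by
  obtain ⟨x, y⟩ := v
  unfold act at hv
  simp only [Prod.mk.injEq] at hv
  obtain ⟨h1, h2⟩ := hv
  have hd := sl_det m
  have hD : (2 - (e00 m + e11 m)) ≠ 0 := fun h => ht (sub_eq_zero.1 h).symm
  have hx : (2 - (e00 m + e11 m)) * x = 0 := by
    linear_combination (e11 m - 1) * h1 - e01 m * h2 - x * hd
  have hy : (2 - (e00 m + e11 m)) * y = 0 := by
    linear_combination (e00 m - 1) * h2 - e10 m * h1 - y * hd
  have hx0 : x = 0 := (mul_eq_zero.1 hx).resolve_left hD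
  have hy0 : y = 0 := (mul_eq_zero.1 hy).resolve_left hD
  rw [hx0, hy0]; rfl

/-- the action on `Multiplicative (F × F)` attached to a representation in `SL₂(F)`. -/
noncomputable def phi {S : Type*} [Group S] (ρ : S →* SpecialLinearGroup (Fin 2) F) :
    S →* MulAut (Multiplicative (F × F)) :=
  letI := actInst (F := F)
  (MulAutMultiplicative (F × F)).symm.toMonoidHom.comp
    ((DistribMulAction.toAddAut (SpecialLinearGroup (Fin 2) F) (F × F)).comp ρ)

theorem phi_apply {S : Type*} [Group S] (ρ : S →* SpecialLinearGroup (Fin 2) F) (s : S)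
    (k : Multiplicative (F × F)) : phi ρ s k = Multiplicative.ofAdd (act (ρ s) k.toAdd) := rfl

theorem exists_frob_of_rep [Finite F] {S : Type*} [Group S] [Finite S] [Nontrivial S]
    (ρ : S →* SpecialLinearGroup (Fin 2) F) (h : ∀ s : S, e00 (ρ s) + e11 (ρ s) = 2 → s = 1) :
    ∃ (L : Type) (_ : Group L) (_ : Finite L) (H : Subgroup L),
      Cfsg.IsFrobeniusComplement H ∧ Nonempty (H ≃* S) := by
  obtain ⟨L, i1, i2, C, hC, ⟨e⟩, -⟩ :=
    Cfsg.Agent.Lib.Helper22.exists_frobeniusComplement_of_fpf (phi ρ) (by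
      intro s hs k hk
      rw [phi_apply] at hk
      have h1 : act (ρ s) k.toAdd = k.toAdd := congrArg Multiplicative.toAdd hk
      have h2 := eq_zero_of_act_eq (fun ht => hs (h s ht)) h1
      exact Multiplicative.toAdd.injective h2)
  exact ⟨L, i1, i2, C, hC, ⟨e.symm⟩⟩

theorem frob_of_table {p P : ℕ} [Fact p.Prime] [Fact P.Prime]
    (E00 E01 E10 E11 : ZMod p → ZMod p → ZMod p → ZMod p → ZMod P)
    (hdet : ∀ a b c d : ZMod p, a * d - b * c = 1 →
      E00 a b c d * E11 a b c d - E01 a b c d * E10 a b c d = 1)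
    (hmul : ∀ a b c d : ZMod p, a * d - b * c = 1 → ∀ a' b' c' d' : ZMod p, a' * d' - b' * c' = 1 →
      E00 (a * a' + b * c') (a * b' + b * d') (c * a' + d * c') (c * b' + d * d') =
        E00 a b c d * E00 a' b' c' d' + E01 a b c d * E10 a' b' c' d' ∧
      E01 (a * a' + b * c') (a * b' + b * d') (c * a' + d * c') (c * b' + d * d') =
        E00 a b c d * E01 a' b' c' d' + E01 a b c d * E11 a' b' c' d' ∧
      E10 (a * a' + b * c') (a * b' + b * d') (c * a' + d * c') (c * b' + d * d') =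
        E10 a b c d * E00 a' b' c' d' + E11 a b c d * E10 a' b' c' d' ∧
      E11 (a * a' + b * c') (a * b' + b * d') (c * a' + d * c') (c * b' + d * d') =
        E10 a b c d * E01 a' b' c' d' + E11 a b c d * E11 a' b' c' d')
    (hfpf : ∀ a b c d : ZMod p, a * d - b * c = 1 → E00 a b c d + E11 a b c d = 2 →
      a = 1 ∧ b = 0 ∧ c = 0 ∧ d = 1) :
    ∃ (L : Type) (_ : Group L) (_ : Finite L) (H : Subgroup L),
      Cfsg.IsFrobeniusComplement H ∧ Nonempty (H ≃* SpecialLinearGroup (Fin 2) (ZMod p)) := by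
  let r : SpecialLinearGroup (Fin 2) (ZMod p) → SpecialLinearGroup (Fin 2) (ZMod P) := fun m =>
    ⟨!![E00 (e00 m) (e01 m) (e10 m) (e11 m), E01 (e00 m) (e01 m) (e10 m) (e11 m);
        E10 (e00 m) (e01 m) (e10 m) (e11 m), E11 (e00 m) (e01 m) (e10 m) (e11 m)], by
      rw [det_fin_two]
      simpa using hdet _ _ _ _ (sl_det m)⟩
  have r00 : ∀ m, e00 (r m) = E00 (e00 m) (e01 m) (e10 m) (e11 m) := fun m => rfl
  have r01 : ∀ m, e01 (r m) = E01 (e00 m) (e01 m) (e10 m) (e11 m) := fun m => rfl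
  have r10 : ∀ m, e10 (r m) = E10 (e00 m) (e01 m) (e10 m) (e11 m) := fun m => rfl
  have r11 : ∀ m, e11 (r m) = E11 (e00 m) (e01 m) (e10 m) (e11 m) := fun m => rfl
  let ρ : SpecialLinearGroup (Fin 2) (ZMod p) →* SpecialLinearGroup (Fin 2) (ZMod P) :=
    MonoidHom.mk' r (by
      intro m n
      obtain ⟨h1, h2, h3, h4⟩ := hmul _ _ _ _ (sl_det m) _ _ _ _ (sl_det n)
      apply sl_ext
      · rw [r00, e00_mul, e00_mul, e01_mul, e10_mul, e11_mul, r00, r00, r01, r10]; exact h1
      · rw [r01, e01_mul, e00_mul, e01_mul, e10_mul, e11_mul, r00, r01, r01, r11]; exact h2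
      · rw [r10, e10_mul, e00_mul, e01_mul, e10_mul, e11_mul, r10, r00, r11, r10]; exact h3
      · rw [r11, e11_mul, e00_mul, e01_mul, e10_mul, e11_mul, r10, r01, r11, r11]; exact h4)
  have hnt : Nontrivial (SpecialLinearGroup (Fin 2) (ZMod p)) := by
    have hc := Cfsg.Agent.Lib.Helper18.card_SL2 (F := ZMod p)
    rw [ZMod.card] at hc
    have hp := (Fact.out : p.Prime).two_le
    apply Finite.one_lt_card_iff_nontrivial.1
    rw [hc]
    have h1 : 1 ≤ p - 1 := by omega
    nlinarith [Nat.mul_le_mul (Nat.le_add_left 1 p) h1]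
  refine exists_frob_of_rep ρ ?_
  intro m hm
  have hm' : E00 (e00 m) (e01 m) (e10 m) (e11 m) + E11 (e00 m) (e01 m) (e10 m) (e11 m) = 2 := hm
  obtain ⟨h1, h2, h3, h4⟩ := hfpf _ _ _ _ (sl_det m) hm'
  apply sl_ext <;> simp [h1, h2, h3, h4]

end Cfsg.Agent.Tr.FrobSL
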