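import Mathlib

/-! # Landau's theorem: the order of a finite group is bounded in terms of its class number -/

namespace Cfsg.Agent.Tr

universe u

theorem landau_aux (k : ℕ) : ∀ A : ℚ, 0 < A → ∃ N : ℕ, ∀ s : Multiset ℕ, s.card = k →
    (∀ n ∈ s, 0 < n) → (s.map (fun n : ℕ => (1 : ℚ) / n)).sum = A → ∀ n ∈ s, n ≤ N := by
  classical
  induction k with
  | zero =>
    intro A _
    refine ⟨0, fun s hs _ _ n hn => ?_⟩
    rw [Multiset.card_eq_zero] at hs
    rw [hs] at hn
    simp at hn
  | succ k ih =>
    intro A hA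
    set m0 : ℕ := ⌊((k : ℚ) + 1) / A⌋₊ with hm0
    let g : ℕ → ℕ := fun m => if h : 0 < A - 1 / (m : ℚ) then Classical.choose (ih _ h) else 0
    refine ⟨max m0 ((Finset.range (m0 + 1)).sup g), fun s hs hpos hsum n hn => ?_⟩
    have hne : s.toFinset.Nonempty := ⟨n, Multiset.mem_toFinset.2 hn⟩
    obtain ⟨a, ha, hmin⟩ := Finset.exists_min_image s.toFinset id hne
    rw [Multiset.mem_toFinset] at ha
    have hmin' : ∀ x ∈ s, a ≤ x := fun x hx => hmin x (Multiset.mem_toFinset.2 hx)
    have ha0 : 0 < a := hpos a ha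
    have ha0' : (0 : ℚ) < a := by exact_mod_cast ha0
    have hle : A ≤ ((k : ℚ) + 1) / a := by
      rw [← hsum]
      have h1 : (s.map (fun n : ℕ => (1 : ℚ) / n)).sum ≤
          (s.map (fun n : ℕ => (1 : ℚ) / n)).card • ((1 : ℚ) / a) := by
        apply Multiset.sum_le_card_nsmul
        intro x hx
        obtain ⟨y, hy, rfl⟩ := Multiset.mem_map.1 hx
        have hy0 : (0 : ℚ) < y := by exact_mod_cast hpos y hy
        have : (a : ℚ) ≤ y := by exact_mod_cast hmin' y hy
        exact one_div_le_one_div_of_le ha0' this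
      rw [Multiset.card_map, hs] at h1
      calc _ ≤ _ := h1
        _ = ((k : ℚ) + 1) / a := by rw [nsmul_eq_mul]; push_cast; ring
    have ham0 : a ≤ m0 := by
      apply Nat.le_floor
      rw [le_div_iff₀ hA]
      rw [le_div_iff₀ ha0'] at hle
      linarith
    obtain ⟨t, rfl⟩ := Multiset.exists_cons_of_mem ha
    rw [Multiset.card_cons] at hs
    have hs' : t.card = k := by omega
    rw [Multiset.map_cons, Multiset.sum_cons] at hsum
    have hsumt : (t.map (fun n : ℕ => (1 : ℚ) / n)).sum = A - 1 / (a : ℚ) := by linarith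
    rcases Multiset.mem_cons.1 hn with rfl | hnt
    · exact le_trans ham0 (le_max_left _ _)
    · have hpos' : 0 < A - 1 / (a : ℚ) := by
        rw [← hsumt]
        obtain ⟨t', rfl⟩ := Multiset.exists_cons_of_mem hnt
        rw [Multiset.map_cons, Multiset.sum_cons]
        have h1 : (0 : ℚ) < 1 / (n : ℚ) := by
          have : (0 : ℚ) < n := by exact_mod_cast hpos n hn
          positivity
        have h2 : (0 : ℚ) ≤ (t'.map (fun n : ℕ => (1 : ℚ) / n)).sum := by
          apply Multiset.sum_nonneg
          intro x hx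
          obtain ⟨y, _, rfl⟩ := Multiset.mem_map.1 hx
          positivity
        linarith
      have hg : g a = Classical.choose (ih _ hpos') := dif_pos hpos'
      have h3 := Classical.choose_spec (ih _ hpos') t hs'
        (fun x hx => hpos x (Multiset.mem_cons_of_mem hx)) hsumt n hnt
      rw [← hg] at h3
      refine le_trans h3 (le_trans ?_ (le_max_right _ _))
      exact Finset.le_sup (f := g) (Finset.mem_range.2 (by omega))

theorem ncard_carrier_dvd {G : Type u} [Group G] [Finite G] (x : ConjClasses G) :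
    x.carrier.ncard ∣ Nat.card G := by
  classical
  cases nonempty_fintype G
  induction x using Quotient.inductionOn with
  | _ g =>
    have h := MulAction.card_orbit_mul_card_stabilizer_eq_card_group (ConjAct G) g
    refine ⟨Fintype.card (MulAction.stabilizer (ConjAct G) g), ?_⟩
    have e1 : Fintype.card (ConjAct G) = Nat.card G := by
      rw [Nat.card_eq_fintype_card]; rfl
    rw [← e1, ← h]
    congr 1
    rw [← Nat.card_coe_set_eq, Nat.card_eq_fintype_card]
    apply Fintype.card_congr
    exact Equiv.setCongr (ConjAct.orbit_eq_carrier_conjClasses g)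

/-- **Landau's theorem.** -/
theorem landau (k : ℕ) : ∃ N : ℕ, ∀ (G : Type u) [Group G] [Finite G],
    Nat.card (ConjClasses G) ≤ k → Nat.card G ≤ N := by
  classical
  let g : ℕ → ℕ := fun j => Classical.choose (landau_aux j 1 one_pos)
  refine ⟨(Finset.range (k + 1)).sup g, fun G _ _ hk => ?_⟩
  cases nonempty_fintype G
  have hG0 : 0 < Nat.card G := Nat.card_pos
  have hc0 : ∀ x : ConjClasses G, 0 < x.carrier.ncard := by
    intro x
    rw [Set.ncard_pos]
    induction x using Quotient.inductionOn with
    | _ a => exact ⟨a, ConjClasses.mem_carrier_mk⟩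
  let s : Multiset ℕ := (Finset.univ : Finset (ConjClasses G)).val.map
    (fun x => Nat.card G / x.carrier.ncard)
  have hs : s.card = Nat.card (ConjClasses G) := by
    simp [s, Nat.card_eq_fintype_card]
  have hpos : ∀ n ∈ s, 0 < n := by
    intro n hn
    obtain ⟨x, -, rfl⟩ := Multiset.mem_map.1 hn
    exact Nat.div_pos (Nat.le_of_dvd hG0 (ncard_carrier_dvd x)) (hc0 x)
  have hsum : (s.map (fun n : ℕ => (1 : ℚ) / n)).sum = 1 := by
    have h1 := Group.sum_card_conj_classes_eq_card G
    rw [finsum_eq_sum_of_fintype] at h1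
    simp only [s, Multiset.map_map, Function.comp]
    change ∑ x : ConjClasses G, (1 : ℚ) / ((Nat.card G / x.carrier.ncard : ℕ) : ℚ) = 1
    have h2 : ∀ x : ConjClasses G, (1 : ℚ) / ((Nat.card G / x.carrier.ncard : ℕ) : ℚ) =
        (x.carrier.ncard : ℚ) / (Nat.card G : ℚ) := by
      intro x
      have hx : ((x.carrier.ncard : ℕ) : ℚ) ≠ 0 := by exact_mod_cast (hc0 x).ne'
      rw [Nat.cast_div (ncard_carrier_dvd x) hx, one_div_div]
    rw [Finset.sum_congr rfl (fun x _ => h2 x), ← Finset.sum_div, ← Nat.cast_sum, h1]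
    have : (Nat.card G : ℚ) ≠ 0 := by exact_mod_cast hG0.ne'
    exact div_self this
  have hmem : Nat.card G ∈ s := by
    refine Multiset.mem_map.2 ⟨ConjClasses.mk 1, Finset.mem_univ _, ?_⟩
    have : (ConjClasses.mk (1 : G)).carrier = {1} := by
      ext y
      rw [ConjClasses.mem_carrier_iff_mk_eq, ConjClasses.mk_eq_mk_iff_isConj, Set.mem_singleton_iff,
        isConj_one_left]
    rw [this, Set.ncard_singleton, Nat.div_one]
  have h3 := Classical.choose_spec (landau_aux (Nat.card (ConjClasses G)) 1 one_pos) s hs hpos hsum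
    _ hmem
  exact le_trans h3 (Finset.le_sup (f := g) (Finset.mem_range.2 (by omega)))

end Cfsg.Agent.Tr
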