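import Cfsg.Agent.Tr.ES6

/-!
# Extraspecial 2-groups, VII: existence of both types (lead)
-/

set_option autoImplicit false
open scoped commutatorElement

namespace Cfsg.Agent.Tr.E2

universe u v

theorem ES.isExtraspecial {E : Type u} [Group E] [Finite E] {z : E} (hE : ES E z)
    (hcard : Nat.card E ≠ 2) : Cfsg.IsExtraspecial 2 E := by
  have : Fact (Nat.Prime 2) := ⟨Nat.prime_two⟩
  have hP : IsPGroup 2 E := by
    intro g
    refine ⟨2, ?_⟩
    have h1 : g ^ 2 ^ 2 = (g * g) * (g * g) := by
      norm_num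
      rw [show (4 : ℕ) = 2 + 2 from rfl, pow_add, pow_two]
    rw [h1]
    rcases hE.sqr g with h | h <;> rw [h]
    · simp
    · exact hE.sq
  have hcen : ∀ w, w ∈ Subgroup.center E ↔ w = 1 ∨ w = z := by
    intro w
    constructor
    · intro hw
      exact hE.center w (fun g => ((Subgroup.mem_center_iff.1 hw) g).symm)
    · rintro (rfl | rfl)
      · exact Subgroup.one_mem _
      · exact Subgroup.mem_center_iff.2 (fun g => (hE.cen g).symm)
  have hc2 : Nat.card (Subgroup.center E) = 2 := by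
    rw [Nat.card_eq_two_iff]
    refine ⟨1, ⟨z, (hcen z).2 (Or.inr rfl)⟩, fun h => hE.ne (congrArg Subtype.val h).symm, ?_⟩
    ext ⟨b, hb⟩
    simp only [Set.mem_insert_iff, Set.mem_singleton_iff, Set.mem_univ, iff_true]
    rcases (hcen b).1 hb with rfl | rfl
    · left; rfl
    · right; rfl
  obtain ⟨x, y, hxy⟩ : ∃ x y : E, x * y = z * (y * x) := by
    have h1 : ¬ ∀ x : E, x = 1 ∨ x = z := fun h => hcard (card_eq_two hE h)
    push Not at h1
    obtain ⟨x, hx1, hxz⟩ := h1
    have h2 : ¬ ∀ g, x * g = g * x := fun h => by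
      rcases hE.center x h with h2 | h2
      · exact hx1 h2
      · exact hxz h2
    push Not at h2
    obtain ⟨y, hy⟩ := h2
    exact ⟨x, y, (hE.comm x y).resolve_left hy⟩
  have hcomm : commutator E = Subgroup.center E := by
    apply le_antisymm
    · rw [commutator_def, Subgroup.commutator_le]
      intro g _ h _
      rw [hcen, commutatorElement_def]
      rcases hE.comm g h with h1 | h1
      · left; rw [h1]; group
      · right; rw [h1]; group
    · intro w hw
      rcases (hcen w).1 hw with rfl | rfl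
      · exact Subgroup.one_mem _
      · have h1 : ⁅x, y⁆ = w := by
          rw [commutatorElement_def, hxy]; group
        rw [← h1, commutator_def]
        exact Subgroup.commutator_mem_commutator (Subgroup.mem_top x) (Subgroup.mem_top y)
  refine ⟨⟨hP, ?_, hcomm⟩, hc2⟩
  apply le_antisymm
  · apply Cfsg.H1.frattini_pgroup_le 2 (Subgroup.center E) hcomm.le
    intro g
    rw [hcen, pow_two]
    exact hE.sqr g
  · rw [← hcomm]
    exact (Cfsg.H1.frattini_pgroup_ge 2 hP).1

theorem es_c2 : ES (Multiplicative (ZMod 2)) (Multiplicative.ofAdd 1) :=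
  ⟨by decide, by decide, by decide, by decide, by decide, by decide⟩

theorem es_q8 : ES (QuaternionGroup 2) (QuaternionGroup.a 2) :=
  ⟨by decide, by decide, by decide, by decide, by decide, by decide⟩

theorem exists_plus (n : ℕ) : ∃ (E : Type) (_ : Group E) (_ : Finite E) (z : E), ES E z ∧
    Nat.card E = 2 ^ (2 * n + 1) ∧ cnt E = 2 ^ (2 * n) + 2 ^ n := by
  induction n with
  | zero =>
    refine ⟨Multiplicative (ZMod 2), inferInstance, inferInstance, _, es_c2, ?_, ?_⟩
    · simp [Nat.card_eq_fintype_card]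
    · rw [cnt_eq_two es_c2 (by decide)]; norm_num
  | succ n ih =>
    obtain ⟨E, _, _, z, hE, hc, hk⟩ := ih
    have : CInv z := ⟨hE.sq, hE.cen⟩
    refine ⟨Ext z, inferInstance, inferInstance, _, hE.ext, ?_, ?_⟩
    · rw [Ext.card_ext, hc]; ring
    · rw [cnt_ext hE, hk, hc]; ring

theorem exists_minus (n : ℕ) : ∃ (E : Type) (_ : Group E) (_ : Finite E) (z : E), ES E z ∧
    Nat.card E = 2 ^ (2 * (n + 1) + 1) ∧ cnt E + 2 ^ (n + 1) = 2 ^ (2 * (n + 1)) := by
  induction n with
  | zero =>
    refine ⟨QuaternionGroup 2, inferInstance, inferInstance, _, es_q8, ?_, ?_⟩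
    · rw [Nat.card_eq_fintype_card, QuaternionGroup.card]; norm_num
    · rw [cnt_eq_two es_q8 (by decide)]; norm_num
  | succ n ih =>
    obtain ⟨E, _, _, z, hE, hc, hk⟩ := ih
    have : CInv z := ⟨hE.sq, hE.cen⟩
    refine ⟨Ext z, inferInstance, inferInstance, _, hE.ext, ?_, ?_⟩
    · rw [Ext.card_ext, hc]; ring
    · rw [cnt_ext hE, hc]
      have e1 : 2 ^ (n + 1 + 1) = 2 * 2 ^ (n + 1) := by ring
      have e2 : 2 ^ (2 * (n + 1 + 1)) = 4 * 2 ^ (2 * (n + 1)) := by ring
      have e3 : 2 ^ (2 * (n + 1) + 1) = 2 * 2 ^ (2 * (n + 1)) := by ring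
      rw [e1, e2, e3]
      omega

end Cfsg.Agent.Tr.E2
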