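import Mathlib

set_option autoImplicit false

/-! Extraspecial-like groups of exponent `p`: normal form `x^i y^j b` and uniqueness. -/

namespace Cfsg.Agent.Tr.EPp

universe u v

/-- intrinsic data: `z` central of order `p`, commutators are powers of `z`, the centre is `⟨z⟩`, exponent `p`. -/
structure EP (p : ℕ) (H : Type u) [Group H] (z : H) : Prop where
  ord : orderOf z = p
  cen : ∀ h : H, h * z = z * h
  comm : ∀ a b : H, ∃ k : ℕ, a * b = b * a * z ^ k
  center : ∀ h : H, (∀ g : H, g * h = h * g) → h ∈ Subgroup.zpowers z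
  exp : ∀ h : H, h ^ p = 1

section gen

variable {G : Type u} [Group G]

theorem swap_pow_right {x y w : G} (hw : ∀ t : G, t * w = w * t) (h : y * x = x * y * w) (k : ℕ) :
    y * x ^ k = x ^ k * y * w ^ k := by
  have h1 : SemiconjBy y x (x * w) := by
    change y * x = x * w * y
    rw [h, mul_assoc, mul_assoc, hw y]
  have h2 := h1.pow_right k
  have h3 : (x * w) ^ k = x ^ k * w ^ k := (show Commute x w from hw x).mul_pow k
  have h4 : y * x ^ k = (x * w) ^ k * y := h2
  have h5 : Commute y (w ^ k) := (show Commute y w from hw y).pow_right k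
  rw [h4, h3, mul_assoc, mul_assoc, h5.eq]

theorem swap_pow_left {x y w : G} (hw : ∀ t : G, t * w = w * t) (h : y * x = x * y * w) (j : ℕ) :
    y ^ j * x = x * y ^ j * w ^ j := by
  have h1 : SemiconjBy x (y * w) y := by
    change x * (y * w) = y * x
    rw [h, mul_assoc]
  have h2 := h1.pow_right j
  have h3 : (y * w) ^ j = y ^ j * w ^ j := (show Commute y w from hw y).mul_pow j
  have h4 : x * (y * w) ^ j = y ^ j * x := h2
  rw [← h4, h3, mul_assoc]

theorem swap_pow_pow {x y w : G} (hw : ∀ t : G, t * w = w * t) (h : y * x = x * y * w) (j k : ℕ) :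
    y ^ j * x ^ k = x ^ k * y ^ j * w ^ (j * k) := by
  have hwj : ∀ t : G, t * w ^ j = w ^ j * t := fun t => ((show Commute t w from hw t).pow_right j).eq
  have := swap_pow_right hwj (swap_pow_left hw h j) k
  rw [this, pow_mul]

theorem comm_of_rel {h g x w : G} (e1 : h * x = x * h * w) (e2 : g * x = x * g * w) :
    (h * g⁻¹) * x = x * (h * g⁻¹) := by
  have h1 : x⁻¹ * h * x = h * w := by rw [mul_assoc, e1]; group
  have h2 : x⁻¹ * g * x = g * w := by rw [mul_assoc, e2]; group
  calc h * g⁻¹ * x = x * ((x⁻¹ * h * x) * (x⁻¹ * g * x)⁻¹) := by group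
    _ = x * (h * w * (g * w)⁻¹) := by rw [h1, h2]
    _ = x * (h * g⁻¹) := by group

theorem comm_of_rel' {h g y w : G} (e3 : y * h = h * y * w) (e4 : y * g = g * y * w) :
    (h * g⁻¹) * y = y * (h * g⁻¹) := by
  have h1 : h⁻¹ * y * h = y * w := by rw [mul_assoc, e3]; group
  have h2 : g⁻¹ * y * g = y * w := by rw [mul_assoc, e4]; group
  calc h * g⁻¹ * y = h * (g⁻¹ * y * g) * g⁻¹ := by group
    _ = h * (h⁻¹ * y * h) * g⁻¹ := by rw [h1, h2]
    _ = y * (h * g⁻¹) := by group

theorem pw_add {p : ℕ} [NeZero p] {x : G} (hx : x ^ p = 1) (i k : ZMod p) :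
    x ^ (i + k).val = x ^ i.val * x ^ k.val := by
  rw [ZMod.val_add, ← pow_eq_pow_mod _ hx, pow_add]

theorem pw_mul {p : ℕ} [NeZero p] {x : G} (hx : x ^ p = 1) (i k : ZMod p) :
    x ^ (i * k).val = x ^ (i.val * k.val) := by
  rw [ZMod.val_mul, ← pow_eq_pow_mod _ hx]

theorem pw_cast {p : ℕ} [NeZero p] {x : G} (hx : x ^ p = 1) (a : ℕ) :
    x ^ ((a : ZMod p)).val = x ^ a := by
  rw [ZMod.val_natCast, ← pow_eq_pow_mod _ hx]

end gen

section nf

variable {p : ℕ} {H : Type u} [Group H] {z : H}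

/-- the centralizer of the hyperbolic pair. -/
def cB (x y : H) : Subgroup H := Subgroup.centralizer {x, y}

theorem mem_cB {x y b : H} : b ∈ cB x y ↔ b * x = x * b ∧ b * y = y * b := by
  unfold cB
  rw [Subgroup.mem_centralizer_iff]
  constructor
  · intro h
    exact ⟨(h x (by simp)).symm, (h y (by simp)).symm⟩
  · rintro ⟨h1, h2⟩ t ht
    rcases ht with rfl | ht
    · exact h1.symm
    · rw [Set.mem_singleton_iff] at ht
      subst ht
      exact h2.symm

theorem EP.z_mem (hE : EP p H z) (x y : H) : z ∈ cB x y :=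
  mem_cB.2 ⟨(hE.cen x).symm, (hE.cen y).symm⟩

theorem EP.zpow (hE : EP p H z) : z ^ p = 1 := hE.exp z

/-- natural-number multiplication law. -/
theorem law_nat (hE : EP p H z) {x y : H} (hxy : y * x = x * y * z) {b c : H} (hb : b ∈ cB x y)
    (i j k l : ℕ) :
    (x ^ i * y ^ j * b) * (x ^ k * y ^ l * c) = x ^ (i + k) * y ^ (j + l) * (z ^ (j * k) * b * c) := by
  obtain ⟨hbx, hby⟩ := mem_cB.1 hb
  have h1 : Commute b (x ^ k) := (show Commute b x from hbx).pow_right k
  have h2 : Commute b (y ^ l) := (show Commute b y from hby).pow_right l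
  have h3 : b * (x ^ k * y ^ l) = x ^ k * y ^ l * b := (h1.mul_right h2).eq
  have h4 := swap_pow_pow hE.cen hxy j k
  have h5 : z ^ (j * k) * y ^ l = y ^ l * z ^ (j * k) :=
    (((show Commute (y ^ l) z from hE.cen _).pow_right (j * k)).eq).symm
  calc (x ^ i * y ^ j * b) * (x ^ k * y ^ l * c)
      = x ^ i * y ^ j * (b * (x ^ k * y ^ l)) * c := by simp only [mul_assoc]
    _ = x ^ i * (y ^ j * x ^ k) * y ^ l * b * c := by rw [h3]; simp only [mul_assoc]
    _ = x ^ i * x ^ k * y ^ j * (z ^ (j * k) * y ^ l) * b * c := by rw [h4]; simp only [mul_assoc]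
    _ = x ^ (i + k) * y ^ (j + l) * (z ^ (j * k) * b * c) := by
        rw [h5, pow_add, pow_add]; simp only [mul_assoc]

/-- the normal form map. -/
def Psi (p : ℕ) (x y : H) : ZMod p × ZMod p × cB x y → H :=
  fun t => x ^ t.1.val * y ^ t.2.1.val * (t.2.2 : H)

/-- multiplication of normal forms. -/
def mlaw (p : ℕ) {B : Type u} [Group B] (zB : B) (t s : ZMod p × ZMod p × B) : ZMod p × ZMod p × B :=
  (t.1 + s.1, t.2.1 + s.2.1, zB ^ (t.2.1 * s.1).val * t.2.2 * s.2.2)

theorem Psi_mul [NeZero p] (hE : EP p H z) {x y : H} (hxy : y * x = x * y * z)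
    (t s : ZMod p × ZMod p × cB x y) :
    Psi p x y t * Psi p x y s = Psi p x y (mlaw p ⟨z, hE.z_mem x y⟩ t s) := by
  unfold Psi mlaw
  rw [law_nat hE hxy t.2.2.2]
  simp only [Subgroup.coe_mul, Subgroup.coe_pow]
  rw [pw_add (hE.exp x), pw_add (hE.exp y), pw_mul hE.zpow, pow_add, pow_add]

theorem Psi_rel_x (hE : EP p H z) {x y : H} (hxy : y * x = x * y * z) (i j : ℕ) {b : H}
    (hb : b ∈ cB x y) : (x ^ i * y ^ j * b) * x = x * (x ^ i * y ^ j * b) * z ^ j := by
  obtain ⟨hbx, hby⟩ := mem_cB.1 hb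
  have h1 := swap_pow_left hE.cen hxy j
  have h2 : z ^ j * b = b * z ^ j := (((show Commute b z from hE.cen _).pow_right j).eq).symm
  have h3 : x ^ i * x = x * x ^ i := (pow_succ x i).symm.trans (pow_succ' x i)
  calc (x ^ i * y ^ j * b) * x = x ^ i * (y ^ j * x) * b := by rw [mul_assoc _ b x, hbx]; simp only [mul_assoc]
    _ = (x ^ i * x) * y ^ j * (z ^ j * b) := by rw [h1]; simp only [mul_assoc]
    _ = x * (x ^ i * y ^ j * b) * z ^ j := by rw [h2, h3]; simp only [mul_assoc]

theorem Psi_rel_y (hE : EP p H z) {x y : H} (hxy : y * x = x * y * z) (i j : ℕ) {b : H}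
    (hb : b ∈ cB x y) : y * (x ^ i * y ^ j * b) = (x ^ i * y ^ j * b) * y * z ^ i := by
  obtain ⟨hbx, hby⟩ := mem_cB.1 hb
  have h1 := swap_pow_right hE.cen hxy i
  have h2 : ∀ t : H, z ^ i * t = t * z ^ i := fun t => (((show Commute t z from hE.cen _).pow_right i).eq).symm
  have h3 : y * y ^ j = y ^ j * y := (pow_succ' y j).symm.trans (pow_succ y j)
  calc y * (x ^ i * y ^ j * b) = (y * x ^ i) * y ^ j * b := by simp only [mul_assoc]
    _ = x ^ i * (y * y ^ j) * (z ^ i * b) := by rw [h1, mul_assoc (x ^ i * y), h2 (y ^ j)]; simp only [mul_assoc]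
    _ = (x ^ i * y ^ j * b) * y * z ^ i := by rw [h2, h3, mul_assoc _ b y, hby]; simp only [mul_assoc]

theorem Psi_injective [hp : Fact p.Prime] (hE : EP p H z) {x y : H} (hxy : y * x = x * y * z) :
    Function.Injective (Psi p x y) := by
  have : NeZero p := ⟨hp.out.ne_zero⟩
  rintro ⟨i, j, b⟩ ⟨k, l, c⟩ h
  unfold Psi at h
  simp only at h
  have key : ∀ a a' : ZMod p, z ^ a.val = z ^ a'.val → a = a' := by
    intro a a' haa
    rw [pow_eq_pow_iff_modEq, hE.ord] at haa
    apply ZMod.val_injective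
    have h1 := Nat.mod_eq_of_lt (ZMod.val_lt a)
    have h2 := Nat.mod_eq_of_lt (ZMod.val_lt a')
    unfold Nat.ModEq at haa
    omega
  have hj : j = l := by
    apply key
    have h1 := Psi_rel_x hE hxy i.val j.val b.2
    have h2 := Psi_rel_x hE hxy k.val l.val c.2
    rw [h, h2] at h1
    exact (mul_left_cancel h1).symm
  have hi : i = k := by
    apply key
    have h1 := Psi_rel_y hE hxy i.val j.val b.2
    have h2 := Psi_rel_y hE hxy k.val l.val c.2
    rw [h, h2] at h1
    exact (mul_left_cancel h1).symm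
  subst hi hj
  have := mul_left_cancel h
  rw [Subtype.ext this]

theorem Psi_surjective [hp : Fact p.Prime] (hE : EP p H z) {x y : H} (hxy : y * x = x * y * z) :
    Function.Surjective (Psi p x y) := by
  have : NeZero p := ⟨hp.out.ne_zero⟩
  intro h
  obtain ⟨a, ha⟩ := hE.comm h x
  obtain ⟨c, hc⟩ := hE.comm y h
  set g : H := x ^ ((c : ZMod p)).val * y ^ ((a : ZMod p)).val with hg
  have h1 : (1 : H) ∈ cB x y := one_mem _
  have e2 : g * x = x * g * z ^ a := by
    have := Psi_rel_x hE hxy ((c : ZMod p)).val ((a : ZMod p)).val h1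
    rw [mul_one, pw_cast hE.zpow] at this
    exact this
  have e4 : y * g = g * y * z ^ c := by
    have := Psi_rel_y hE hxy ((c : ZMod p)).val ((a : ZMod p)).val h1
    rw [mul_one, pw_cast hE.zpow] at this
    exact this
  have hb : h * g⁻¹ ∈ cB x y := mem_cB.2 ⟨comm_of_rel ha e2, comm_of_rel' hc e4⟩
  obtain ⟨hbx, hby⟩ := mem_cB.1 hb
  have hcg : Commute (h * g⁻¹) g :=
    ((show Commute (h * g⁻¹) x from hbx).pow_right _).mul_right
      ((show Commute (h * g⁻¹) y from hby).pow_right _)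
  refine ⟨((c : ZMod p), (a : ZMod p), ⟨h * g⁻¹, hb⟩), ?_⟩
  unfold Psi
  simp only
  rw [← hg, ← hcg.eq]
  group

end nf

end Cfsg.Agent.Tr.EPp
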