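import Mathlib

/-!
# Extraspecial 2-groups, intrinsic form (lead)

`ES H z`: `z` is a central involution, all commutators and squares lie in `{1, z}` and the centre is `{1, z}`.
Splitting off a pair of anticommuting elements.
-/

set_option autoImplicit false

namespace Cfsg.Agent.Tr.E2

universe u v

structure ES (H : Type u) [Group H] (z : H) : Prop where
  ne : z ≠ 1
  sq : z * z = 1
  cen : ∀ g, z * g = g * z
  comm : ∀ g h : H, g * h = h * g ∨ g * h = z * (h * g)
  sqr : ∀ g : H, g * g = 1 ∨ g * g = z
  center : ∀ w : H, (∀ g, w * g = g * w) → w = 1 ∨ w = z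

/-- number of solutions of `h ^ 2 = 1`. -/
noncomputable def cnt (H : Type u) [Group H] : ℕ := Nat.card {h : H // h ^ 2 = 1}

section basic
variable {H : Type u} [Group H] {z : H}

open Classical in
/-- the "commutes with `t`" character. -/
noncomputable def chi (hE : ES H z) (t : H) : H →* ℤˣ where
  toFun g := if g * t = t * g then 1 else -1
  map_one' := by simp
  map_mul' := by
    intro g h
    by_cases hg : g * t = t * g <;> by_cases hh : h * t = t * h
    · have : g * h * t = t * (g * h) := by rw [mul_assoc, hh, ← mul_assoc, hg, mul_assoc]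
      simp [hg, hh, this]
    · have : ¬ g * h * t = t * (g * h) := by
        intro hc
        apply hh
        have h1 : g * (h * t) = g * (t * h) := by
          rw [← mul_assoc, hc, ← mul_assoc, ← hg, mul_assoc]
        exact mul_left_cancel h1
      simp [hg, hh, this]
    · have : ¬ g * h * t = t * (g * h) := by
        intro hc
        apply hg
        have h1 : g * t * h = t * g * h := by
          rw [mul_assoc, ← hh, ← mul_assoc, hc, mul_assoc]
        exact mul_right_cancel h1
      simp [hg, hh, this]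
    · have hg' := (hE.comm g t).resolve_left hg
      have hh' := (hE.comm h t).resolve_left hh
      have : g * h * t = t * (g * h) := by
        calc g * h * t = g * (h * t) := mul_assoc _ _ _
          _ = g * (z * (t * h)) := by rw [hh']
          _ = z * (g * t) * h := by
            rw [← mul_assoc g z, ← hE.cen g]; simp only [mul_assoc]
          _ = z * (z * (t * g)) * h := by rw [hg']
          _ = (z * z) * (t * (g * h)) := by simp only [mul_assoc]
          _ = t * (g * h) := by rw [hE.sq, one_mul]
      simp [hg, hh, this]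

theorem chi_eq_one (hE : ES H z) (t g : H) : chi hE t g = 1 ↔ g * t = t * g := by
  classical
  show (if g * t = t * g then (1 : ℤˣ) else -1) = 1 ↔ _
  by_cases h : g * t = t * g
  · simp [h]
  · simp only [h, if_false, iff_false]
    decide

theorem chi_eq_neg (hE : ES H z) (t g : H) : chi hE t g = -1 ↔ ¬ g * t = t * g := by
  rw [← chi_eq_one hE]
  rcases Int.units_eq_one_or (chi hE t g) with h | h
  · rw [h]; decide
  · rw [h]; decide

theorem ES.inv_z (hE : ES H z) : z⁻¹ = z := inv_eq_of_mul_eq_one_left hE.sq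

theorem ES.not_comm (hE : ES H z) {x y : H} (hxy : x * y = z * (y * x)) : ¬ x * y = y * x := by
  intro h
  rw [h] at hxy
  exact hE.ne (mul_eq_right.1 hxy.symm)

theorem ES.symm_ac (hE : ES H z) {x y : H} (hxy : x * y = z * (y * x)) : y * x = z * (x * y) := by
  rw [hxy, ← mul_assoc, hE.sq, one_mul]

/-- centralizer of the pair. -/
def cB (x y : H) : Subgroup H where
  carrier := {b | b * x = x * b ∧ b * y = y * b}
  one_mem' := by simp
  mul_mem' := by
    rintro a b ⟨ha1, ha2⟩ ⟨hb1, hb2⟩
    exact ⟨by rw [mul_assoc, hb1, ← mul_assoc, ha1, mul_assoc],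
      by rw [mul_assoc, hb2, ← mul_assoc, ha2, mul_assoc]⟩
  inv_mem' := by
    rintro a ⟨ha1, ha2⟩
    exact ⟨(Commute.inv_left (show Commute a x from ha1)).eq,
      (Commute.inv_left (show Commute a y from ha2)).eq⟩

theorem mem_cB {x y b : H} : b ∈ cB x y ↔ b * x = x * b ∧ b * y = y * b := Iff.rfl

def w (x y : H) (i j : Bool) : H := (if i then x else 1) * (if j then y else 1)

theorem chi_x_w (hE : ES H z) {x y : H} (hxy : x * y = z * (y * x)) (i j : Bool) :
    chi hE x (w x y i j) = if j then -1 else 1 := by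
  have h1 : chi hE x x = 1 := (chi_eq_one hE x x).2 rfl
  have h2 : chi hE x y = -1 := (chi_eq_neg hE x y).2 (fun h => hE.not_comm hxy h.symm)
  cases i <;> cases j <;> simp [w, h1, h2]

theorem chi_y_w (hE : ES H z) {x y : H} (hxy : x * y = z * (y * x)) (i j : Bool) :
    chi hE y (w x y i j) = if i then -1 else 1 := by
  have h1 : chi hE y y = 1 := (chi_eq_one hE y y).2 rfl
  have h2 : chi hE y x = -1 := (chi_eq_neg hE y x).2 (hE.not_comm hxy)
  cases i <;> cases j <;> simp [w, h1, h2]

theorem mem_cB_iff_chi (hE : ES H z) {x y b : H} :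
    b ∈ cB x y ↔ chi hE x b = 1 ∧ chi hE y b = 1 := by
  rw [mem_cB, chi_eq_one, chi_eq_one]

theorem decomp (hE : ES H z) {x y : H} (hxy : x * y = z * (y * x)) (h : H) :
    ∃ i j : Bool, ∃ b ∈ cB x y, h = w x y i j * b := by
  have key : ∀ i j : Bool, chi hE x h = (if j then -1 else 1) → chi hE y h = (if i then -1 else 1) →
      ∃ i j : Bool, ∃ b ∈ cB x y, h = w x y i j * b := by
    intro i j h1 h2
    refine ⟨i, j, (w x y i j)⁻¹ * h, ?_, by group⟩
    rw [mem_cB_iff_chi hE, map_mul, map_mul, map_inv, map_inv, chi_x_w hE hxy, chi_y_w hE hxy, h1, h2]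
    cases i <;> cases j <;> simp
  rcases Int.units_eq_one_or (chi hE x h) with h1 | h1 <;>
    rcases Int.units_eq_one_or (chi hE y h) with h2 | h2
  · exact key false false (by simpa using h1) (by simpa using h2)
  · exact key true false (by simpa using h1) (by simpa using h2)
  · exact key false true (by simpa using h1) (by simpa using h2)
  · exact key true true (by simpa using h1) (by simpa using h2)

theorem w_inj (hE : ES H z) {x y : H} (hxy : x * y = z * (y * x)) {i j k l : Bool} {b c : H}
    (hb : b ∈ cB x y) (hc : c ∈ cB x y) (h : w x y i j * b = w x y k l * c) :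
    i = k ∧ j = l ∧ b = c := by
  have hb' := (mem_cB_iff_chi hE).1 hb
  have hc' := (mem_cB_iff_chi hE).1 hc
  have h1 := congrArg (chi hE x) h
  have h2 := congrArg (chi hE y) h
  rw [map_mul, map_mul, chi_x_w hE hxy, chi_x_w hE hxy, hb'.1, hc'.1, mul_one, mul_one] at h1
  rw [map_mul, map_mul, chi_y_w hE hxy, chi_y_w hE hxy, hb'.2, hc'.2, mul_one, mul_one] at h2
  have hj : j = l := by
    revert h1; cases j <;> cases l <;> simp
  have hi : i = k := by
    revert h2; cases i <;> cases k <;> simp
  subst hi hj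
  exact ⟨rfl, rfl, mul_left_cancel h⟩

/-- the normal form bijection. -/
noncomputable def Phi (hE : ES H z) {x y : H} (hxy : x * y = z * (y * x)) :
    Bool × Bool × cB x y ≃ H :=
  Equiv.ofBijective (fun t => w x y t.1 t.2.1 * (t.2.2 : H)) (by
    constructor
    · rintro ⟨i, j, b⟩ ⟨k, l, c⟩ h
      obtain ⟨h1, h2, h3⟩ := w_inj hE hxy b.2 c.2 h
      subst h1 h2
      have : b = c := Subtype.ext h3
      rw [this]
    · intro h
      obtain ⟨i, j, b, hb, rfl⟩ := decomp hE hxy h
      exact ⟨(i, j, ⟨b, hb⟩), rfl⟩)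

theorem Phi_apply (hE : ES H z) {x y : H} (hxy : x * y = z * (y * x)) (t : Bool × Bool × cB x y) :
    Phi hE hxy t = w x y t.1 t.2.1 * (t.2.2 : H) := rfl

theorem card_eq (hE : ES H z) {x y : H} (hxy : x * y = z * (y * x)) :
    Nat.card H = 4 * Nat.card (cB x y) := by
  rw [← Nat.card_congr (Phi hE hxy), Nat.card_prod, Nat.card_prod]
  simp
  ring

theorem z_mem_cB (hE : ES H z) (x y : H) : z ∈ cB x y := ⟨hE.cen x, hE.cen y⟩

theorem comm_w {x y b : H} (hb : b ∈ cB x y) (i j : Bool) : b * w x y i j = w x y i j * b := by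
  obtain ⟨h1, h2⟩ := hb
  cases i <;> cases j <;> simp [w]
  · exact h2
  · exact h1
  · rw [← mul_assoc, h1, mul_assoc, h2, mul_assoc]

/-- a subgroup containing `z` whose centre is `{1, z}` is again of the same kind. -/
theorem ES.sub (hE : ES H z) (K : Subgroup H) (hz : z ∈ K)
    (hc : ∀ w ∈ K, (∀ g ∈ K, w * g = g * w) → w = 1 ∨ w = z) : ES K ⟨z, hz⟩ where
  ne := fun h => hE.ne (congrArg Subtype.val h)
  sq := Subtype.ext hE.sq
  cen := fun g => Subtype.ext (hE.cen g)
  comm := fun g h => by
    rcases hE.comm g h with h1 | h1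
    · exact Or.inl (Subtype.ext h1)
    · exact Or.inr (Subtype.ext h1)
  sqr := fun g => by
    rcases hE.sqr g with h1 | h1
    · exact Or.inl (Subtype.ext h1)
    · exact Or.inr (Subtype.ext h1)
  center := fun w hw => by
    rcases hc w w.2 (fun g hg => congrArg Subtype.val (hw ⟨g, hg⟩)) with h1 | h1
    · exact Or.inl (Subtype.ext h1)
    · exact Or.inr (Subtype.ext h1)

theorem ES.cB (hE : ES H z) {x y : H} (hxy : x * y = z * (y * x)) :
    ES (cB x y) ⟨z, z_mem_cB hE x y⟩ := by
  apply hE.sub
  intro c hc hcc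
  apply hE.center
  intro g
  obtain ⟨i, j, b, hb, rfl⟩ := decomp hE hxy g
  rw [← mul_assoc, comm_w hc, mul_assoc, hcc b hb, mul_assoc]

/-- isomorphisms preserve the central involution. -/
theorem ES.map_z {H' : Type v} [Group H'] {z' : H'} (hE : ES H z) (hE' : ES H' z') (e : H ≃* H') :
    e z = z' := by
  have h1 : e z = 1 ∨ e z = z' := by
    apply hE'.center
    intro g
    obtain ⟨g, rfl⟩ := e.surjective g
    rw [← map_mul, ← map_mul, hE.cen]
  rcases h1 with h1 | h1
  · exact absurd ((map_eq_one_iff e e.injective).1 h1) hE.ne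
  · exact h1

end basic

end Cfsg.Agent.Tr.E2
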