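import Cfsg.Agent.Tr.ES1

/-!
# Extraspecial 2-groups, II: counting square roots of 1 and gluing central products (lead)
-/

set_option autoImplicit false

namespace Cfsg.Agent.Tr.E2

universe u v

section count
variable {H : Type u} [Group H] {z : H}

theorem w_sq (hE : ES H z) {x y : H} (hxy : x * y = z * (y * x)) (hx : x * x = 1) (hy : y * y = 1)
    (i j : Bool) : w x y i j * w x y i j = if i && j then z else 1 := by
  cases i <;> cases j <;> simp [w, hx, hy]
  calc x * y * (x * y) = x * (y * x) * y := by simp only [mul_assoc]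
    _ = x * (z * (x * y)) * y := by rw [hE.symm_ac hxy]
    _ = z * (x * x) * (y * y) := by
      rw [← mul_assoc x z, ← hE.cen x]; simp only [mul_assoc]
    _ = z := by rw [hx, hy, mul_one, mul_one]

theorem sq_iff (hE : ES H z) {x y : H} (hxy : x * y = z * (y * x)) (hx : x * x = 1) (hy : y * y = 1)
    (i j : Bool) (b : cB x y) :
    (Phi hE hxy (i, j, b)) ^ 2 = 1 ↔ if i && j then ¬ b ^ 2 = 1 else b ^ 2 = 1 := by
  have h1 : (Phi hE hxy (i, j, b)) ^ 2 = (w x y i j * w x y i j) * ((b : H) * b) := by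
    rw [Phi_apply, sq]
    show w x y i j * (b : H) * (w x y i j * (b : H)) = _
    rw [mul_assoc, ← mul_assoc (b : H), comm_w b.2]
    simp only [mul_assoc]
  have h2 : b ^ 2 = 1 ↔ (b : H) * b = 1 := by
    rw [sq, Subtype.ext_iff]; rfl
  rw [h1, w_sq hE hxy hx hy, h2]
  by_cases hij : (i && j) = true
  · simp only [hij, if_true]
    rcases hE.sqr (b : H) with h3 | h3
    · rw [h3, mul_one]
      simp [hE.ne]
    · rw [h3, hE.sq]
      simp [hE.ne]
  · simp only [hij, if_false, one_mul, Bool.false_eq_true]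

theorem cnt_le [Finite H] : cnt H ≤ Nat.card H := by
  unfold cnt
  exact Nat.card_le_card_of_injective _ Subtype.val_injective

theorem cnt_eq [Finite H] (hE : ES H z) {x y : H} (hxy : x * y = z * (y * x)) (hx : x * x = 1)
    (hy : y * y = 1) : cnt H = 2 * cnt (cB x y) + Nat.card (cB x y) := by
  classical
  haveI := Fintype.ofFinite H
  have e1 : cnt H = ∑ h : H, if h ^ 2 = 1 then 1 else 0 := by
    unfold cnt; rw [Nat.card_eq_fintype_card, Fintype.card_subtype, Finset.card_filter]
  have e2 : cnt (cB x y) = ∑ b : cB x y, if b ^ 2 = 1 then 1 else 0 := by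
    unfold cnt; rw [Nat.card_eq_fintype_card, Fintype.card_subtype, Finset.card_filter]
  have e3 : (∑ b : cB x y, if ¬ b ^ 2 = 1 then 1 else 0) + cnt (cB x y) = Nat.card (cB x y) := by
    rw [e2, ← Finset.card_filter, ← Finset.card_filter, add_comm,
      Finset.card_filter_add_card_filter_not, Finset.card_univ, Nat.card_eq_fintype_card]
  have key : ∀ i j : Bool, (∑ b : cB x y, if (Phi hE hxy (i, j, b)) ^ 2 = 1 then 1 else 0) =
      if i && j then (∑ b : cB x y, if ¬ b ^ 2 = 1 then 1 else 0) else cnt (cB x y) := by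
    intro i j
    by_cases hij : (i && j) = true
    · simp only [hij, if_true]
      apply Finset.sum_congr rfl
      intro b _
      have := sq_iff hE hxy hx hy i j b
      simp only [hij, if_true] at this
      simp only [this]
    · simp only [hij, if_false, Bool.false_eq_true]
      rw [e2]
      apply Finset.sum_congr rfl
      intro b _
      have := sq_iff hE hxy hx hy i j b
      simp only [hij, if_false, Bool.false_eq_true] at this
      simp only [this]
  rw [e1, ← Equiv.sum_comp (Phi hE hxy), Fintype.sum_prod_type]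
  simp only [Fintype.sum_prod_type, Fintype.sum_bool, key]
  simp only [Bool.and_true, Bool.and_false, if_true, if_false, Bool.false_eq_true, Bool.and_self]
  omega

end count

section glue

theorem glue {H : Type u} {H' : Type v} [Group H] [Group H'] [Finite H]
    (hcard : Nat.card H = Nat.card H') (A B : Subgroup H) (A' B' : Subgroup H')
    (hAB : ∀ a ∈ A, ∀ b ∈ B, a * b = b * a) (hAB' : ∀ a ∈ A', ∀ b ∈ B', a * b = b * a)
    (hgen : ∀ h : H, ∃ a ∈ A, ∃ b ∈ B, h = a * b) (hgen' : ∀ h : H', ∃ a ∈ A', ∃ b ∈ B', h = a * b)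
    (α : A ≃* A') (β : B ≃* B')
    (hcompat : ∀ (a : A) (b : B), (a : H) = b → ((α a : A') : H') = β b) : Nonempty (H ≃* H') := by
  let f : A × B →* H := MonoidHom.noncommCoprod A.subtype B.subtype (fun a b => hAB a a.2 b b.2)
  let g : A × B →* H' := MonoidHom.noncommCoprod (A'.subtype.comp α.toMonoidHom)
    (B'.subtype.comp β.toMonoidHom) (fun a b => hAB' _ (α a).2 _ (β b).2)
  have hfa : ∀ t : A × B, f t = (t.1 : H) * t.2 := fun t => rfl
  have hga : ∀ t : A × B, g t = ((α t.1 : A') : H') * ((β t.2 : B') : H') := fun t => rfl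
  have hf : Function.Surjective f := by
    intro h
    obtain ⟨a, ha, b, hb, rfl⟩ := hgen h
    exact ⟨(⟨a, ha⟩, ⟨b, hb⟩), rfl⟩
  have hg : Function.Surjective g := by
    intro h
    obtain ⟨a, ha, b, hb, rfl⟩ := hgen' h
    refine ⟨(α.symm ⟨a, ha⟩, β.symm ⟨b, hb⟩), ?_⟩
    rw [hga]; simp
  have hker : f.ker ≤ g.ker := by
    rintro ⟨a, b⟩ h
    rw [MonoidHom.mem_ker, hfa] at h
    rw [MonoidHom.mem_ker, hga]
    have h1 : (a : H) = ((b⁻¹ : B) : H) := by
      rw [Subgroup.coe_inv]; exact eq_inv_of_mul_eq_one_left h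
    have h2 := hcompat a b⁻¹ h1
    show ((α a : A') : H') * ((β b : B') : H') = 1
    rw [h2, map_inv, Subgroup.coe_inv, inv_mul_cancel]
  let φ : H →* H' := f.liftOfSurjective hf ⟨g, hker⟩
  have hφ : ∀ t, φ (f t) = g t := fun t => f.liftOfRightInverse_comp_apply _ _ ⟨g, hker⟩ t
  have hsurj : Function.Surjective φ := by
    intro h
    obtain ⟨t, rfl⟩ := hg h
    exact ⟨f t, hφ t⟩
  have hbij : Function.Bijective φ := (Nat.bijective_iff_surjective_and_card φ).2 ⟨hsurj, hcard⟩
  exact ⟨MulEquiv.ofBijective φ hbij⟩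

end glue

section pair
variable {H : Type u} [Group H] {z : H}

theorem exists_pair (hE : ES H z) {x : H} (hx : x * x = 1) (hx1 : x ≠ 1) (hxz : x ≠ z) :
    ∃ y, y * y = 1 ∧ x * y = z * (y * x) := by
  have h1 : ¬ ∀ g, x * g = g * x := fun h => by
    rcases hE.center x h with h2 | h2
    · exact hx1 h2
    · exact hxz h2
  push Not at h1
  obtain ⟨y, hy⟩ := h1
  have hxy := (hE.comm x y).resolve_left hy
  rcases hE.sqr y with h2 | h2
  · exact ⟨y, h2, hxy⟩
  · refine ⟨x * y, ?_, ?_⟩
    · calc x * y * (x * y) = x * (y * x) * y := by simp only [mul_assoc]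
        _ = x * (z * (x * y)) * y := by rw [hE.symm_ac hxy]
        _ = z * (x * x) * (y * y) := by
          rw [← mul_assoc x z, ← hE.cen x]; simp only [mul_assoc]
        _ = 1 := by rw [hx, h2, mul_one, hE.sq]
    · calc x * (x * y) = x * (z * (y * x)) := by rw [hxy]
        _ = z * (x * y * x) := by
          rw [← mul_assoc x z, ← hE.cen x]; simp only [mul_assoc]

end pair

end Cfsg.Agent.Tr.E2
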