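import Cfsg.Agent.Tr.ES2
import Cfsg.Agent.S0206
import Cfsg.Agent.Lib.Helper18.Quat

/-!
# Extraspecial 2-groups, III: classification by order and number of square roots of 1 (lead)
-/

set_option autoImplicit false

namespace Cfsg.Agent.Tr.E2

universe u v

section small
variable {H : Type u} [Group H] {z : H}

theorem cnt_eq_two (hE : ES H z) (hno : ∀ x : H, x * x = 1 → x = 1 ∨ x = z) : cnt H = 2 := by
  unfold cnt
  rw [Nat.card_eq_two_iff]
  refine ⟨⟨1, by simp⟩, ⟨z, by rw [sq]; exact hE.sq⟩, ?_, ?_⟩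
  · intro h; exact hE.ne (congrArg Subtype.val h).symm
  · ext ⟨h, hh⟩
    simp only [Set.mem_insert_iff, Set.mem_singleton_iff, Set.mem_univ, iff_true]
    rw [sq] at hh
    rcases hno h hh with rfl | rfl
    · left; rfl
    · right; rfl

theorem cnt_ne_two (hE : ES H z) {x : H} (hx : x * x = 1) (hx1 : x ≠ 1) (hxz : x ≠ z) :
    cnt H ≠ 2 := by
  unfold cnt
  intro h
  rw [Nat.card_eq_two_iff' (⟨1, by simp⟩ : {h : H // h ^ 2 = 1})] at h
  obtain ⟨y, _, hy⟩ := h
  have h1 := hy ⟨z, by rw [sq]; exact hE.sq⟩ (fun h => hE.ne (congrArg Subtype.val h))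
  have h2 := hy ⟨x, by rw [sq]; exact hx⟩ (fun h => hx1 (congrArg Subtype.val h))
  exact hxz (congrArg Subtype.val (h2.trans h1.symm))

theorem card_eq_two (hE : ES H z) (h : ∀ x : H, x = 1 ∨ x = z) : Nat.card H = 2 := by
  rw [Nat.card_eq_two_iff]
  refine ⟨1, z, hE.ne.symm, ?_⟩
  ext x
  simp only [Set.mem_insert_iff, Set.mem_singleton_iff, Set.mem_univ, iff_true]
  exact h x

theorem q8 [Finite H] (hE : ES H z) (hno : ∀ x : H, x * x = 1 → x = 1 ∨ x = z) {x : H}
    (hx1 : x ≠ 1) (hxz : x ≠ z) : Nat.card H = 8 ∧ Nonempty (H ≃* QuaternionGroup 2) := by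
  have hsq : ∀ g : H, g ≠ 1 → g ≠ z → g * g = z := by
    intro g h1 h2
    refine (hE.sqr g).resolve_left (fun h => ?_)
    rcases hno g h with h | h
    · exact h1 h
    · exact h2 h
  have hxx := hsq x hx1 hxz
  have h1 : ¬ ∀ g, x * g = g * x := fun h => by
    rcases hE.center x h with h2 | h2
    · exact hx1 h2
    · exact hxz h2
  push Not at h1
  obtain ⟨y, hy⟩ := h1
  have hxy := (hE.comm x y).resolve_left hy
  have hy1 : y ≠ 1 := by rintro rfl; simp at hy
  have hyz : y ≠ z := by rintro rfl; exact hy (hE.cen x).symm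
  have hyy := hsq y hy1 hyz
  have hB : ∀ b ∈ cB x y, b = 1 ∨ b = z := by
    intro b hb
    by_contra hcon
    push Not at hcon
    have hbb := hsq b hcon.1 hcon.2
    have h1 : (x * b) * (x * b) = 1 := by
      calc x * b * (x * b) = x * (b * x) * b := by simp only [mul_assoc]
        _ = x * (x * b) * b := by rw [hb.1]
        _ = (x * x) * (b * b) := by simp only [mul_assoc]
        _ = 1 := by rw [hxx, hbb, hE.sq]
    have h2 : x * b ∈ cB x y := by
      rcases hno _ h1 with h2 | h2
      · rw [h2]; exact Subgroup.one_mem _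
      · rw [h2]; exact z_mem_cB hE x y
    have h3 : x ∈ cB x y := by
      have h4 := Subgroup.mul_mem _ h2 (Subgroup.inv_mem _ hb)
      rwa [mul_inv_cancel_right] at h4
    exact hy h3.2
  have hcB : Nat.card (cB x y) = 2 := by
    rw [Nat.card_eq_two_iff]
    refine ⟨1, ⟨z, z_mem_cB hE x y⟩, fun h => hE.ne (congrArg Subtype.val h).symm, ?_⟩
    ext ⟨b, hb⟩
    simp only [Set.mem_insert_iff, Set.mem_singleton_iff, Set.mem_univ, iff_true]
    rcases hB b hb with rfl | rfl
    · left; rfl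
    · right; rfl
  have hcard : Nat.card H = 8 := by rw [card_eq hE hxy, hcB]
  refine ⟨hcard, ?_⟩
  apply Cfsg.Agent.Lib.Helper18.mulEquiv_quaternion 2 x y
  · have : orderOf x = 2 ^ (1 + 1) := by
      apply orderOf_eq_prime_pow
      · rw [pow_one, sq, hxx]; exact hE.ne
      · have : x ^ 2 ^ (1 + 1) = (x * x) * (x * x) := by
          norm_num
          rw [show (4 : ℕ) = 2 + 2 from rfl, pow_add, sq]
        rw [this, hxx, hE.sq]
    rw [this]; norm_num
  · intro h
    obtain ⟨k, rfl⟩ := Subgroup.mem_zpowers_iff.1 h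
    exact hy ((Commute.refl x).zpow_right k).eq
  · rw [sq, sq, hxx, hyy]
  · have h1 : y * x * y⁻¹ = z * x := by
      rw [hE.symm_ac hxy]; group
    rw [h1]
    apply eq_inv_of_mul_eq_one_left
    rw [mul_assoc, hxx, hE.sq]
  · rw [hcard]

end small

section dihedral
variable {H : Type u} [Group H] {z : H}

theorem xy_sq (hE : ES H z) {x y : H} (hxy : x * y = z * (y * x)) (hx : x * x = 1) (hy : y * y = 1) :
    x * y * (x * y) = z := by
  have := w_sq hE hxy hx hy true true
  simpa [w] using this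

theorem z_mem_A (hE : ES H z) {x y : H} (hxy : x * y = z * (y * x)) (hx : x * x = 1) (hy : y * y = 1) :
    z ∈ Subgroup.closure ({x, y} : Set H) := by
  have hxA : x ∈ Subgroup.closure ({x, y} : Set H) := Subgroup.subset_closure (by simp)
  have hyA : y ∈ Subgroup.closure ({x, y} : Set H) := Subgroup.subset_closure (by simp)
  rw [← xy_sq hE hxy hx hy]
  exact Subgroup.mul_mem _ (Subgroup.mul_mem _ hxA hyA) (Subgroup.mul_mem _ hxA hyA)

theorem w_mem_A (x y : H) (i j : Bool) : w x y i j ∈ Subgroup.closure ({x, y} : Set H) := by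
  have hxA : x ∈ Subgroup.closure ({x, y} : Set H) := Subgroup.subset_closure (by simp)
  have hyA : y ∈ Subgroup.closure ({x, y} : Set H) := Subgroup.subset_closure (by simp)
  cases i <;> cases j <;> simp [w, hxA, hyA, Subgroup.mul_mem]

theorem A_comm_B {x y : H} : ∀ a ∈ Subgroup.closure ({x, y} : Set H), ∀ b ∈ cB x y, a * b = b * a := by
  intro a ha b hb
  induction ha using Subgroup.closure_induction with
  | mem a ha =>
    rcases ha with rfl | ha
    · exact hb.1.symm
    · rw [Set.mem_singleton_iff] at ha; subst ha; exact hb.2.symm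
  | one => simp
  | mul a c _ _ iha ihc => rw [mul_assoc, ihc, ← mul_assoc, iha, mul_assoc]
  | inv a _ iha => exact (Commute.inv_left (show Commute a b from iha)).eq

theorem A_inf_B (hE : ES H z) {x y : H} (hxy : x * y = z * (y * x)) {a : H}
    (ha : a ∈ Subgroup.closure ({x, y} : Set H)) (hb : a ∈ cB x y) : a = 1 ∨ a = z := by
  apply hE.center
  intro g
  obtain ⟨i, j, b, hb', rfl⟩ := decomp hE hxy g
  rw [← mul_assoc, comm_w hb, mul_assoc, A_comm_B a ha b hb', mul_assoc]

theorem ES.A (hE : ES H z) {x y : H} (hxy : x * y = z * (y * x)) (hx : x * x = 1) (hy : y * y = 1) :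
    ES (Subgroup.closure ({x, y} : Set H)) ⟨z, z_mem_A hE hxy hx hy⟩ := by
  apply hE.sub
  intro a ha hc
  apply A_inf_B hE hxy ha
  exact ⟨hc x (Subgroup.subset_closure (by simp)), hc y (Subgroup.subset_closure (by simp))⟩

theorem A_iso [Finite H] (hE : ES H z) {x y : H} (hxy : x * y = z * (y * x)) (hx : x * x = 1)
    (hy : y * y = 1) : Nonempty (Subgroup.closure ({x, y} : Set H) ≃* DihedralGroup 4) := by
  have hx1 : x ≠ 1 := by
    rintro rfl
    exact hE.not_comm hxy (by simp)
  have hy1 : y ≠ 1 := by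
    rintro rfl
    exact hE.not_comm hxy (by simp)
  have hne : x ≠ y := by
    rintro rfl
    exact hE.not_comm hxy rfl
  have hox : orderOf x = 2 := orderOf_eq_prime (by rw [sq]; exact hx) hx1
  have hoy : orderOf y = 2 := orderOf_eq_prime (by rw [sq]; exact hy) hy1
  have h4 : orderOf (x * y) = 4 := by
    have : orderOf (x * y) = 2 ^ (1 + 1) := by
      apply orderOf_eq_prime_pow
      · rw [pow_one, sq, xy_sq hE hxy hx hy]; exact hE.ne
      · have : (x * y) ^ 2 ^ (1 + 1) = ((x * y) * (x * y)) * ((x * y) * (x * y)) := by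
          norm_num
          rw [show (4 : ℕ) = 2 + 2 from rfl, pow_add, sq]
        rw [this, xy_sq hE hxy hx hy, hE.sq]
    rw [this]; norm_num
  have := Cfsg.Agent.S0206.result x y hox hoy hne
  rwa [h4] at this

end dihedral

/-- gluing along a dihedral factor. -/
theorem split_iso {H : Type u} {H' : Type v} [Group H] [Group H'] [Finite H] [Finite H'] {z : H} {z' : H'}
    (hE : ES H z) (hE' : ES H' z') (hcard : Nat.card H = Nat.card H')
    {x y : H} (hxy : x * y = z * (y * x)) (hx : x * x = 1) (hy : y * y = 1)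
    {x' y' : H'} (hxy' : x' * y' = z' * (y' * x')) (hx' : x' * x' = 1) (hy' : y' * y' = 1)
    (β : cB x y ≃* cB x' y') : Nonempty (H ≃* H') := by
  obtain ⟨e⟩ := A_iso hE hxy hx hy
  obtain ⟨e'⟩ := A_iso hE' hxy' hx' hy'
  refine glue hcard (Subgroup.closure {x, y}) (cB x y) (Subgroup.closure {x', y'}) (cB x' y')
    A_comm_B A_comm_B ?_ ?_ (e.trans e'.symm) β ?_
  · intro h
    obtain ⟨i, j, b, hb, rfl⟩ := decomp hE hxy h
    exact ⟨_, w_mem_A x y i j, b, hb, rfl⟩
  · intro h
    obtain ⟨i, j, b, hb, rfl⟩ := decomp hE' hxy' h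
    exact ⟨_, w_mem_A x' y' i j, b, hb, rfl⟩
  · intro a b hab
    have h1 : (a : H) = 1 ∨ (a : H) = z := A_inf_B hE hxy a.2 (hab ▸ b.2)
    rcases h1 with h1 | h1
    · have ha : a = 1 := Subtype.ext h1
      have hb : b = 1 := Subtype.ext (hab ▸ h1)
      rw [ha, hb, map_one, map_one]; rfl
    · have ha : a = ⟨z, z_mem_A hE hxy hx hy⟩ := Subtype.ext h1
      have hb : b = ⟨z, z_mem_cB hE x y⟩ := Subtype.ext (hab ▸ h1)
      rw [ha, hb, (hE.A hxy hx hy).map_z (hE'.A hxy' hx' hy') (e.trans e'.symm),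
        (hE.cB hxy).map_z (hE'.cB hxy') β]

/-- order and count. -/
theorem count_aux (n : ℕ) : ∀ (H : Type u) [Group H] [Finite H] (z : H), ES H z → Nat.card H ≤ n →
    ∃ m, Nat.card H = 2 ^ (2 * m + 1) ∧ (cnt H = 2 ^ (2 * m) + 2 ^ m ∨ cnt H + 2 ^ m = 2 ^ (2 * m)) := by
  induction n with
  | zero =>
    intro H _ _ z _ h
    have : 0 < Nat.card H := Nat.card_pos
    omega
  | succ n ih =>
    intro H _ _ z hE hn
    by_cases hinv : ∃ x : H, x * x = 1 ∧ x ≠ 1 ∧ x ≠ z
    · obtain ⟨x, hx, hx1, hxz⟩ := hinv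
      obtain ⟨y, hy, hxy⟩ := exists_pair hE hx hx1 hxz
      have hc := card_eq hE hxy
      have hpos : 0 < Nat.card (cB x y) := Nat.card_pos
      obtain ⟨m, hm, hm'⟩ := ih (cB x y) _ (hE.cB hxy) (by omega)
      refine ⟨m + 1, ?_, ?_⟩
      · rw [hc, hm]; ring
      · rw [cnt_eq hE hxy hx hy, hm]
        have e1 : 2 ^ (2 * (m + 1)) = 4 * 2 ^ (2 * m) := by ring
        have e2 : 2 ^ (2 * m + 1) = 2 * 2 ^ (2 * m) := by ring
        have e3 : 2 ^ (m + 1) = 2 * 2 ^ m := by ring
        rw [e1, e2, e3]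
        rcases hm' with h | h
        · left; omega
        · right; omega
    · push Not at hinv
      have hno : ∀ x : H, x * x = 1 → x = 1 ∨ x = z := by
        intro x hx
        by_contra hcon
        push Not at hcon
        exact hcon.2 (hinv x hx hcon.1)
      have hc2 := cnt_eq_two hE hno
      by_cases hall : ∀ x : H, x = 1 ∨ x = z
      · exact ⟨0, by rw [card_eq_two hE hall]; norm_num, Or.inl (by rw [hc2]; norm_num)⟩
      · push Not at hall
        obtain ⟨x, hx1, hxz⟩ := hall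
        exact ⟨1, by rw [(q8 hE hno hx1 hxz).1]; norm_num, Or.inr (by rw [hc2]; norm_num)⟩

theorem iso_aux (n : ℕ) : ∀ (H : Type u) [Group H] [Finite H] (z : H) (H' : Type v) [Group H'] [Finite H']
    (z' : H'), ES H z → ES H' z' → Nat.card H ≤ n → Nat.card H = Nat.card H' → cnt H = cnt H' →
    Nonempty (H ≃* H') := by
  induction n with
  | zero =>
    intro H _ _ z H' _ _ z' _ _ h
    have : 0 < Nat.card H := Nat.card_pos
    omega
  | succ n ih =>
    intro H _ _ z H' _ _ z' hE hE' hn hcard hcnt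
    by_cases hinv : ∃ x : H, x * x = 1 ∧ x ≠ 1 ∧ x ≠ z
    · obtain ⟨x, hx, hx1, hxz⟩ := hinv
      have hinv' : ∃ x : H', x * x = 1 ∧ x ≠ 1 ∧ x ≠ z' := by
        by_contra hcon
        push Not at hcon
        have hno : ∀ x : H', x * x = 1 → x = 1 ∨ x = z' := by
          intro x hx
          by_contra hcon'
          push Not at hcon'
          exact hcon'.2 (hcon x hx hcon'.1)
        exact cnt_ne_two hE hx hx1 hxz (hcnt.trans (cnt_eq_two hE' hno))
      obtain ⟨x', hx', hx1', hxz'⟩ := hinv'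
      obtain ⟨y, hy, hxy⟩ := exists_pair hE hx hx1 hxz
      obtain ⟨y', hy', hxy'⟩ := exists_pair hE' hx' hx1' hxz'
      have hc := card_eq hE hxy
      have hc' := card_eq hE' hxy'
      have hk := cnt_eq hE hxy hx hy
      have hk' := cnt_eq hE' hxy' hx' hy'
      have hpos : 0 < Nat.card (cB x y) := Nat.card_pos
      obtain ⟨β⟩ := ih (cB x y) _ (cB x' y') _ (hE.cB hxy) (hE'.cB hxy') (by omega) (by omega)
        (by omega)
      exact split_iso hE hE' hcard hxy hx hy hxy' hx' hy' β
    · push Not at hinv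
      have hno : ∀ x : H, x * x = 1 → x = 1 ∨ x = z := by
        intro x hx
        by_contra hcon
        push Not at hcon
        exact hcon.2 (hinv x hx hcon.1)
      have hc2 := cnt_eq_two hE hno
      have hno' : ∀ x : H', x * x = 1 → x = 1 ∨ x = z' := by
        intro x hx
        by_contra hcon
        push Not at hcon
        exact cnt_ne_two hE' hx hcon.1 hcon.2 (hcnt.symm.trans hc2)
      by_cases hall : ∀ x : H, x = 1 ∨ x = z
      · have h2 := card_eq_two hE hall
        have : Fact (Nat.Prime 2) := ⟨Nat.prime_two⟩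
        exact ⟨mulEquivOfPrimeCardEq (p := 2) h2 (hcard ▸ h2)⟩
      · push Not at hall
        obtain ⟨x, hx1, hxz⟩ := hall
        obtain ⟨h8, ⟨e⟩⟩ := q8 hE hno hx1 hxz
        have hall' : ¬ ∀ x : H', x = 1 ∨ x = z' := by
          intro h
          have := card_eq_two hE' h
          omega
        push Not at hall'
        obtain ⟨x', hx1', hxz'⟩ := hall'
        obtain ⟨_, ⟨e'⟩⟩ := q8 hE' hno' hx1' hxz'
        exact ⟨e.trans e'.symm⟩

end Cfsg.Agent.Tr.E2
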