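import Cfsg.Agent.Tr.ES5
import Cfsg.Agent.H1.Small2

/-!
# Extraspecial 2-groups, VI: existence (central product with a dihedral group of order 8) (lead)
-/

set_option autoImplicit false

namespace Cfsg.Agent.Tr.E2

universe u v

/-- `z` is a central element with `z * z = 1`. -/
class CInv {B : Type u} [Group B] (z : B) : Prop where
  sq : z * z = 1
  cen : ∀ g, z * g = g * z

/-- carrier of the central product of `B` with a dihedral group of order 8. -/
@[ext] structure Ext {B : Type u} (z : B) where
  i : Bool
  j : Bool
  b : B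

namespace Ext
variable {B : Type u} [Group B] {z : B}

def eps (z : B) (j k : Bool) : B := if j && k then z else 1

instance : Mul (Ext z) := ⟨fun g h => ⟨xor g.i h.i, xor g.j h.j, eps z g.j h.i * g.b * h.b⟩⟩
instance : One (Ext z) := ⟨⟨false, false, 1⟩⟩
instance : Inv (Ext z) := ⟨fun g => ⟨g.i, g.j, eps z g.j g.i * g.b⁻¹⟩⟩

theorem mul_def (g h : Ext z) :
    g * h = ⟨xor g.i h.i, xor g.j h.j, eps z g.j h.i * g.b * h.b⟩ := rfl
theorem one_def : (1 : Ext z) = ⟨false, false, 1⟩ := rfl
theorem inv_def (g : Ext z) : g⁻¹ = ⟨g.i, g.j, eps z g.j g.i * g.b⁻¹⟩ := rfl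

theorem eps_cases (z : B) (j k : Bool) : eps z j k = 1 ∨ eps z j k = z := by
  unfold eps; split_ifs
  · exact Or.inr rfl
  · exact Or.inl rfl

theorem eps_cen [CInv z] (j k : Bool) (g : B) : eps z j k * g = g * eps z j k := by
  rcases eps_cases z j k with h | h <;> rw [h]
  · simp
  · exact CInv.cen g

theorem eps_sq [CInv z] (j k : Bool) : eps z j k * eps z j k = 1 := by
  rcases eps_cases z j k with h | h <;> rw [h]
  · simp
  · exact CInv.sq

theorem eps_id [CInv z] (j k l m : Bool) :
    eps z (xor j l) m * eps z j k = eps z j (xor k m) * eps z l m := by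
  cases j <;> cases k <;> cases l <;> cases m <;> simp [eps, CInv.sq]

instance [CInv z] : Group (Ext z) := Group.ofLeftAxioms
  (by
    intro a b c
    ext
    · simp [mul_def]
    · simp [mul_def]
    · show eps z (xor a.j b.j) c.i * (eps z a.j b.i * a.b * b.b) * c.b =
        eps z a.j (xor b.i c.i) * a.b * (eps z b.j c.i * b.b * c.b)
      calc eps z (xor a.j b.j) c.i * (eps z a.j b.i * a.b * b.b) * c.b
          = (eps z (xor a.j b.j) c.i * eps z a.j b.i) * (a.b * b.b * c.b) := by
            simp only [mul_assoc]
        _ = (eps z a.j (xor b.i c.i) * eps z b.j c.i) * (a.b * b.b * c.b) := by rw [eps_id]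
        _ = eps z a.j (xor b.i c.i) * (eps z b.j c.i * a.b) * (b.b * c.b) := by
            simp only [mul_assoc]
        _ = eps z a.j (xor b.i c.i) * (a.b * eps z b.j c.i) * (b.b * c.b) := by rw [eps_cen b.j c.i a.b]
        _ = _ := by simp only [mul_assoc])
  (by intro a; ext <;> simp [mul_def, one_def, eps])
  (by
    intro a
    ext
    · simp [mul_def, one_def, inv_def]
    · simp [mul_def, one_def, inv_def]
    · show eps z a.j a.i * (eps z a.j a.i * a.b⁻¹) * a.b = 1
      rw [← mul_assoc, eps_sq, one_mul, inv_mul_cancel])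

def equivProd (z : B) : Ext z ≃ Bool × Bool × B where
  toFun g := (g.i, g.j, g.b)
  invFun t := ⟨t.1, t.2.1, t.2.2⟩
  left_inv _ := rfl
  right_inv _ := rfl

instance [Finite B] : Finite (Ext z) := Finite.of_equiv _ (equivProd z).symm

theorem card_ext : Nat.card (Ext z) = 4 * Nat.card B := by
  rw [Nat.card_congr (equivProd z), Nat.card_prod, Nat.card_prod]
  simp
  ring

end Ext

open Ext

section
variable {B : Type u} [Group B] {z : B}

theorem aux_cases (hE : ES B z) {e1 e2 P Q : B} (h1 : e1 = 1 ∨ e1 = z) (h2 : e2 = 1 ∨ e2 = z)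
    (h : P = Q ∨ P = z * Q) : e1 * P = e2 * Q ∨ e1 * P = z * (e2 * Q) := by
  rcases h1 with rfl | rfl <;> rcases h2 with rfl | rfl <;> rcases h with rfl | rfl
  · left; rfl
  · right; simp
  · right; rw [← mul_assoc, hE.sq]
  · left; simp
  · right; simp
  · left; rw [← mul_assoc, hE.sq]
  · left; rfl
  · right; rfl

theorem ES.ext (hE : ES B z) [CInv z] : ES (Ext z) ⟨false, false, z⟩ where
  ne := fun h => hE.ne (congrArg Ext.b h)
  sq := by ext <;> simp [mul_def, one_def, eps, hE.sq]
  cen := fun g => by ext <;> simp [mul_def, eps, hE.cen]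
  comm := fun g h => by
    have key := aux_cases hE (eps_cases z g.j h.i) (eps_cases z h.j g.i) (hE.comm g.b h.b)
    rcases key with key | key
    · left
      ext
      · simp [mul_def, Bool.xor_comm]
      · simp [mul_def, Bool.xor_comm]
      · show eps z g.j h.i * g.b * h.b = eps z h.j g.i * h.b * g.b
        rw [mul_assoc, mul_assoc]; exact key
    · right
      ext
      · simp [mul_def, Bool.xor_comm]
      · simp [mul_def, Bool.xor_comm]
      · show eps z g.j h.i * g.b * h.b = eps z false (xor h.i g.i) * z * (eps z h.j g.i * h.b * g.b)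
        have : eps z false (xor h.i g.i) = 1 := by simp [eps]
        rw [this, one_mul, mul_assoc, mul_assoc (eps z h.j g.i)]; exact key
  sqr := fun g => by
    have h1 : g * g = ⟨false, false, eps z g.j g.i * (g.b * g.b)⟩ := by
      ext <;> simp [mul_def, mul_assoc]
    rw [h1, one_def]
    rcases eps_cases z g.j g.i with h2 | h2 <;> rcases hE.sqr g.b with h3 | h3 <;> rw [h2, h3]
    · left; simp
    · right; simp
    · right; simp
    · left; rw [hE.sq]
  center := fun w hw => by
    have hj : w.j = false := by
      have h1 := congrArg Ext.b (hw ⟨true, false, 1⟩)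
      have h2 : eps z w.j true * w.b * 1 = eps z false w.i * 1 * w.b := h1
      cases hwj : w.j
      · rfl
      · rw [hwj] at h2
        simp [eps] at h2
        exact absurd h2 hE.ne
    have hi : w.i = false := by
      have h1 := congrArg Ext.b (hw ⟨false, true, 1⟩)
      have h2 : eps z w.j false * w.b * 1 = eps z true w.i * 1 * w.b := h1
      cases hwi : w.i
      · rfl
      · rw [hwi] at h2
        simp [eps] at h2
        exact absurd h2 hE.ne
    have hb : w.b = 1 ∨ w.b = z := by
      apply hE.center
      intro c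
      have h1 := congrArg Ext.b (hw ⟨false, false, c⟩)
      have h2 : eps z w.j false * w.b * c = eps z false w.i * c * w.b := h1
      simpa [eps] using h2
    rcases hb with hb | hb
    · left; ext
      · exact hi
      · exact hj
      · exact hb
    · right; ext
      · exact hi
      · exact hj
      · exact hb

theorem cnt_congr {H : Type u} {H' : Type v} [Group H] [Group H'] (e : H ≃* H') : cnt H = cnt H' := by
  unfold cnt
  apply Nat.card_congr
  refine e.toEquiv.subtypeEquiv (fun h => ?_)
  constructor
  · intro hh
    show (e h) ^ 2 = 1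
    rw [← map_pow, hh, map_one]
  · intro hh
    have h1 : (e h) ^ 2 = 1 := hh
    rw [← map_pow] at h1
    exact (map_eq_one_iff e e.injective).1 h1

theorem cnt_ext [Finite B] (hE : ES B z) [CInv z] : cnt (Ext z) = 2 * cnt B + Nat.card B := by
  have hE' := hE.ext
  set x : Ext z := ⟨true, false, 1⟩ with hx
  set y : Ext z := ⟨false, true, 1⟩ with hy
  have hxx : x * x = 1 := by ext <;> simp [mul_def, one_def, eps, hx]
  have hyy : y * y = 1 := by ext <;> simp [mul_def, one_def, eps, hy]
  have hxy : x * y = (⟨false, false, z⟩ : Ext z) * (y * x) := by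
    ext <;> simp [mul_def, eps, hx, hy, hE.sq]
  have hmem : ∀ g : Ext z, g ∈ cB x y → g.i = false ∧ g.j = false := by
    intro g hg
    constructor
    · have h1 := congrArg Ext.b hg.2
      have h2 : eps z g.j false * g.b * 1 = eps z true g.i * 1 * g.b := h1
      cases hgi : g.i
      · rfl
      · rw [hgi] at h2
        simp [eps] at h2
        exact absurd h2 hE.ne
    · have h1 := congrArg Ext.b hg.1
      have h2 : eps z g.j true * g.b * 1 = eps z false g.i * 1 * g.b := h1
      cases hgj : g.j
      · rfl
      · rw [hgj] at h2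
        simp [eps] at h2
        exact absurd h2 hE.ne
  let ι : B →* cB x y :=
    { toFun := fun b => ⟨⟨false, false, b⟩, by
        constructor <;> ext <;> simp [mul_def, eps, hx, hy]⟩
      map_one' := rfl
      map_mul' := fun b c => by
        apply Subtype.ext
        ext <;> simp [mul_def, eps] }
  have hbij : Function.Bijective ι := by
    constructor
    · intro b c h
      exact congrArg (fun t : cB x y => (t : Ext z).b) h
    · rintro ⟨g, hg⟩
      refine ⟨g.b, ?_⟩
      apply Subtype.ext
      obtain ⟨h1, h2⟩ := hmem g hg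
      ext
      · exact h1.symm
      · exact h2.symm
      · rfl
  have e := MulEquiv.ofBijective ι hbij
  rw [cnt_eq hE' hxy hxx hyy, ← cnt_congr e, ← Nat.card_congr e.toEquiv]

end

end Cfsg.Agent.Tr.E2
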